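import Cfsg.Agent.R24.Def

/-!
# S3318, pure group theory A: pairs of conjugates of a weakly closed subgroup
Definitions in R24/Def (`cj g A = g A g⁻¹`, `AbZ`, `WCl`).  Keep names and statements.
-/

set_option autoImplicit false

namespace Cfsg.Agent.R24

open Cfsg Cfsg.Agent.Comp Cfsg.Agent.Spor Cfsg.Agent.Spor.M24C Subgroup
open scoped Pointwise commutatorElement

variable {G : Type*} [Group G] [Finite G] {K A : Subgroup G} {z : G}

omit [Finite G] in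
theorem zp_cases (hz : z * z = 1) {x : G} (hx : x ∈ zpowers z) : x = 1 ∨ x = z := by
  have key : zpowers z ≤
      { carrier := {y | y = 1 ∨ y = z}
        one_mem' := Or.inl rfl
        mul_mem' := by
          rintro a b (rfl | rfl) (rfl | rfl)
          · exact Or.inl (one_mul _)
          · exact Or.inr (one_mul _)
          · exact Or.inr (mul_one _)
          · exact Or.inl hz
        inv_mem' := by
          rintro a (rfl | rfl)
          · exact Or.inl inv_one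
          · exact Or.inr (inv_eq_of_mul_eq_one_right hz) } :=
    (zpowers_le).2 (Or.inr rfl)
  exact key hx

omit [Finite G] in
theorem AbZ.zc (h : AbZ K A z) {x k : G} (hx : x ∈ zpowers z) (hk : k ∈ K) : k * x = x * k := by
  rcases zp_cases h.z_sq hx with rfl | rfl
  · simp
  · exact h.z_cent k hk

omit [Finite G] in
theorem AbZ.zconj (h : AbZ K A z) {x k : G} (hx : x ∈ zpowers z) (hk : k ∈ K) :
    k * x * k⁻¹ = x := by
  rw [h.zc hx hk, mul_inv_cancel_right]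

omit [Finite G] in
theorem le_normalizer_of_conj {X U : Subgroup G} (h : ∀ x ∈ X, ∀ u ∈ U, x * u * x⁻¹ ∈ U) :
    X ≤ normalizer (U : Set G) := by
  intro x hx
  rw [mem_normalizer_iff]
  refine fun u => ⟨h x hx u, fun hu => ?_⟩
  have := h x⁻¹ (X.inv_mem hx) _ hu
  simpa [mul_assoc] using this

omit [Finite G] in
/-- `(ab)², a², b² ∈ ⟨z⟩` and `z` central give `⁅a,b⁆ ∈ ⟨z⟩`. -/
theorem AbZ.comm (h : AbZ K A z) {a b : G} (ha : a ∈ A) (hb : b ∈ A) : ⁅a, b⁆ ∈ zpowers z := by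
  have h1 := h.sq a ha
  have h2 := h.sq b hb
  have h3 := h.sq _ (A.mul_mem ha hb)
  have e : ⁅a, b⁆ = a * b * (a * b) * (b⁻¹ * (a * a)⁻¹ * b⁻¹⁻¹) * (b * b)⁻¹ := by
    rw [commutatorElement_def]; group
  rw [e, h.zconj ((zpowers z).inv_mem h1) (K.inv_mem (h.le hb))]
  exact mul_mem (mul_mem h3 (inv_mem h1)) (inv_mem h2)

omit [Finite G] in
theorem AbZ.isPGroup (h : AbZ K A z) : IsPGroup 2 A := by
  intro a
  refine ⟨2, Subtype.ext ?_⟩
  have e : ((a ^ 2 ^ 2 : A) : G) = (a * a) * (a * a) := by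
    push_cast; simp only [pow_succ, pow_zero, one_mul, mul_assoc]
  rw [e]
  rcases zp_cases h.z_sq (h.sq a a.2) with h1 | h1
  · rw [h1]; simp
  · rw [h1]; exact h.z_sq

omit [Finite G] in
theorem AbZ.cj (h : AbZ K A z) {k : G} (hk : k ∈ K) : AbZ K (cj k A) z := by
  refine ⟨fun x hx => ?_, ?_, h.z_sq, h.z_cent, fun x hx => ?_⟩
  · have := K.mul_mem (K.mul_mem hk (h.le (mem_cj.1 hx))) (K.inv_mem hk)
    simpa [mul_assoc] using this
  · rw [mem_cj]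
    have := h.zconj (mem_zpowers z) (K.inv_mem hk)
    rw [inv_inv] at this
    rw [this]; exact h.z_mem
  · have h1 := h.sq _ (mem_cj.1 hx)
    have h2 := h.zconj h1 hk
    have e : k * (k⁻¹ * x * k * (k⁻¹ * x * k)) * k⁻¹ = x * x := by group
    rw [e] at h2
    rw [h2]; exact h1

omit [Finite G] in
/-- Weak closure for a conjugate (conjugate `P` back). -/
theorem WCl.eq (h : WCl K A) {P : Subgroup G} (hP : IsPGroup 2 P) {k k' : G} (hk : k ∈ K)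
    (hk' : k' ∈ K) (h1 : cj k A ≤ P) (h2 : cj k' A ≤ P) : cj k A = cj k' A := by
  have hA : A ≤ cj k⁻¹ P := by
    have := cj_mono k⁻¹ h1
    rwa [cj_cj, inv_mul_cancel, cj_one] at this
  have hB : cj (k⁻¹ * k') A ≤ cj k⁻¹ P := by
    rw [← cj_cj]; exact cj_mono _ h2
  have := h _ (isPGroup_cj hP k⁻¹) hA _ (K.mul_mem (K.inv_mem hk) hk') hB
  have e := congrArg (cj k) this
  rw [cj_cj, mul_inv_cancel_left] at e
  exact e.symm

/-- Two 2-subgroups of `N`: after conjugating the second by `n ∈ N` both lie in one 2-subgroup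
of `N` (Sylow). -/
theorem exists_two_over {N P R : Subgroup G} (hP : IsPGroup 2 P) (hR : IsPGroup 2 R)
    (hPN : P ≤ N) (hRN : R ≤ N) :
    ∃ n ∈ N, ∃ T : Subgroup G, IsPGroup 2 T ∧ T ≤ N ∧ P ≤ T ∧ cj n R ≤ T := by
  have hP' : IsPGroup 2 (P.subgroupOf N) := hP.comap_of_injective _ N.subtype_injective
  have hR' : IsPGroup 2 (R.subgroupOf N) := hR.comap_of_injective _ N.subtype_injective
  obtain ⟨S, hS⟩ := hP'.exists_le_sylow
  obtain ⟨S', hS'⟩ := hR'.exists_le_sylow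
  obtain ⟨n, hn⟩ := MulAction.exists_smul_eq N S' S
  refine ⟨n, n.2, (S : Subgroup N).map N.subtype, S.isPGroup'.map _, map_subtype_le _,
    fun x hx => ⟨⟨x, hPN hx⟩, hS hx, rfl⟩, fun x hx => ?_⟩
  have hx' := mem_cj.1 hx
  have hxN : x ∈ N := by
    have := N.mul_mem (N.mul_mem n.2 (hRN hx')) (N.inv_mem n.2)
    simpa [mul_assoc] using this
  refine ⟨⟨x, hxN⟩, ?_, rfl⟩
  have h1 : (⟨(n : G)⁻¹ * x * n, hRN hx'⟩ : N) ∈ (S' : Subgroup N) := hS' hx'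
  rw [← hn, SetLike.mem_coe, Sylow.coe_subgroup_smul, mem_pointwise_smul_iff_inv_smul_mem]
  convert h1 using 1
  ext
  simp

/-- Pair lemma. Among the conjugates `B = cj k' A` (`k' ∈ K`) containing `t` and `A ⊓ cj k A`
take one with `D = A ⊓ B` of largest order. `U = D ⊔ ⟨t⟩`, `N = K ⊓ N(U)`. `B ≤ N` as
`⁅B,U⁆ ≤ ⟨z⟩ ≤ U`. `A1 = {a ∈ A | ⁅a,t⁆ ∈ D}` is a subgroup (`A` normalises `D` since `z ∈ D`)
and `A1 ≤ N` (elements of `U` are `d` or `d t`, `t² ∈ ⟨z⟩`). By `exists_two_over` there are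
`n ∈ N` and a 2-group `T ≤ N` with `A1 ≤ T`, `B' = cj n B ≤ T`; `U = cj n U ≤ B'`, so
`A ⊓ B' = D` by maximality, and `T` normalises `B'` by `WCl.eq`. Conversely `a ∈ A ⊓ N(B')`
has `⁅a,t⁆ ∈ B'`. -/
theorem pair (h : AbZ K A z) (hw : WCl K A) {t k : G} (ht : t ∈ normalizer (A : Set G))
    (hk : k ∈ K) (htk : t ∈ cj k A) :
    ∃ k' ∈ K, t ∈ cj k' A ∧ A ⊓ cj k A ≤ cj k' A ∧
      ∀ a ∈ A, (a ∈ normalizer (cj k' A : Set G) ↔ ⁅a, t⁆ ∈ cj k' A) := by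
  classical
  obtain ⟨k', ⟨hk', htB, hle⟩, hmax⟩ := Set.exists_max_image
    {k' : G | k' ∈ K ∧ t ∈ cj k' A ∧ A ⊓ cj k A ≤ cj k' A}
    (fun k' => Nat.card (A ⊓ cj k' A : Subgroup G)) (Set.toFinite _) ⟨k, hk, htk, inf_le_right⟩
  have hB := h.cj hk'
  set B := cj k' A with hBdef
  have hzD : zpowers z ≤ A ⊓ B := zpowers_le.2 ⟨h.z_mem, hB.z_mem⟩
  have hAD : ∀ a ∈ A, ∀ d ∈ A ⊓ B, a * d * a⁻¹ ∈ A ⊓ B := fun a ha d hd => by
    have e : a * d * a⁻¹ = ⁅a, d⁆ * d := by rw [commutatorElement_def]; group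
    rw [e]; exact mul_mem (hzD (h.comm ha hd.1)) hd
  set U : Subgroup G := (A ⊓ B) ⊔ zpowers t with hU
  have hUB : U ≤ B := sup_le inf_le_right (zpowers_le.2 htB)
  have htU : t ∈ U := mem_sup_right (mem_zpowers t)
  let A1 : Subgroup G :=
    { carrier := {a | a ∈ A ∧ ⁅a, t⁆ ∈ A ⊓ B}
      one_mem' := ⟨A.one_mem, by simp⟩
      mul_mem' := by
        rintro a b ⟨ha, ha'⟩ ⟨hb, hb'⟩
        refine ⟨A.mul_mem ha hb, ?_⟩
        have e : ⁅a * b, t⁆ = a * ⁅b, t⁆ * a⁻¹ * ⁅a, t⁆ := by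
          simp only [commutatorElement_def]; group
        rw [e]; exact mul_mem (hAD a ha _ hb') ha'
      inv_mem' := by
        rintro a ⟨ha, ha'⟩
        refine ⟨A.inv_mem ha, ?_⟩
        have e : ⁅a⁻¹, t⁆ = a⁻¹ * ⁅a, t⁆⁻¹ * a⁻¹⁻¹ := by
          simp only [commutatorElement_def]; group
        rw [e]; exact hAD _ (A.inv_mem ha) _ (inv_mem ha') }
  have hA1A : A1 ≤ A := fun a ha => ha.1
  have hBN : B ≤ K ⊓ normalizer (U : Set G) := by
    refine le_inf hB.le (le_normalizer_of_conj fun x hx u hu => ?_)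
    have e : x * u * x⁻¹ = ⁅x, u⁆ * u := by rw [commutatorElement_def]; group
    rw [e]
    exact mul_mem (mem_sup_left (hzD (hB.comm hx (hUB hu)))) hu
  have hA1N : A1 ≤ K ⊓ normalizer (U : Set G) := by
    refine le_inf (hA1A.trans h.le) (le_normalizer_of_conj fun x hx => ?_)
    have : U ≤ U.comap (MulAut.conj x).toMonoidHom := by
      refine sup_le (fun d hd => ?_) (zpowers_le.2 ?_)
      · exact mem_comap.2 (mem_sup_left (hAD x hx.1 d hd))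
      · refine mem_comap.2 ?_
        have e : (MulAut.conj x).toMonoidHom t = ⁅x, t⁆ * t := by
          simp [commutatorElement_def]
        rw [e]; exact mul_mem (mem_sup_left hx.2) htU
    exact fun u hu => this hu
  obtain ⟨n, hn, T, hT, hTN, hA1T, hBT⟩ :=
    exists_two_over (h.isPGroup.to_le hA1A) hB.isPGroup hA1N hBN
  have hnk : n * k' ∈ K := K.mul_mem hn.1 hk'
  have hUB' : U ≤ cj (n * k') A := by
    rw [← cj_cj, ← cj_eq_iff.2 hn.2]; exact cj_mono _ hUB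
  have hDB' : A ⊓ B ≤ A ⊓ cj (n * k') A := le_inf inf_le_left (le_sup_left.trans hUB')
  have hle' : A ⊓ cj k A ≤ cj (n * k') A :=
    (le_inf inf_le_left hle).trans (hDB'.trans inf_le_right)
  have hcard := hmax (n * k') ⟨hnk, hUB' htU, hle'⟩
  have heq : A ⊓ B = A ⊓ cj (n * k') A := eq_of_le_of_card_ge hDB' hcard
  rw [hBdef, cj_cj] at hBT
  refine ⟨n * k', hnk, hUB' htU, hle', fun a ha => ⟨fun hN => ?_, fun hc => ?_⟩⟩
  · rw [commutatorElement_def]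
    exact mul_mem ((mem_normalizer_iff.1 hN t).1 (hUB' htU)) (inv_mem (hUB' htU))
  · have h1 : ⁅a, t⁆ ∈ A := by
      have e : ⁅a, t⁆ = a * (t * a⁻¹ * t⁻¹) := by rw [commutatorElement_def]; group
      rw [e]; exact A.mul_mem ha ((mem_normalizer_iff.1 ht _).1 (A.inv_mem ha))
    have h2 : a ∈ T := hA1T ⟨ha, heq ▸ (mem_inf.2 ⟨h1, hc⟩)⟩
    rw [← cj_eq_iff, cj_cj]
    refine hw.eq hT (K.mul_mem (h.le ha) hnk) hnk ?_ hBT
    rw [← cj_cj]
    exact (cj_mono a hBT).trans (cj_eq_iff.2 (le_normalizer h2)).le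

/-- `a ↦ ⁅a,t⁆ D` is a homomorphism `A → A/D` with kernel `A1` and image in `A1/D`
(`⁅⁅a,t⁆,t⁆ ∈ ⟨z⟩` because `t² ∈ ⟨z⟩` is central); so `|A : A1| ≤ |A1 : D|`.  (E.g. the map
`A ⧸ A1 → A1 ⧸ D` on cosets is well defined and injective.) -/
theorem pair_card (h : AbZ K A z) {t : G} (htK : t ∈ K) (ht : t ∈ normalizer (A : Set G))
    (ht2 : t * t ∈ zpowers z) {D A1 : Subgroup G} (hz : z ∈ D) (hD : D ≤ A1)
    (hA1 : ∀ a, a ∈ A1 ↔ a ∈ A ∧ ⁅a, t⁆ ∈ D) :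
    Nat.card A * Nat.card D ≤ Nat.card A1 * Nat.card A1 := by
  have hA1A : A1 ≤ A := fun a ha => ((hA1 a).1 ha).1
  have hAD : ∀ a ∈ A, ∀ d ∈ D, a * d * a⁻¹ ∈ D := fun a ha d hd => by
    have e : a * d * a⁻¹ = ⁅a, d⁆ * d := by rw [commutatorElement_def]; group
    rw [e]; exact mul_mem (zpowers_le.2 hz (h.comm ha (hA1A (hD hd)))) hd
  have hcA : ∀ a ∈ A, ⁅a, t⁆ ∈ A := fun a ha => by
    have e : ⁅a, t⁆ = a * (t * a⁻¹ * t⁻¹) := by rw [commutatorElement_def]; group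
    rw [e]; exact A.mul_mem ha ((mem_normalizer_iff.1 ht _).1 (A.inv_mem ha))
  have hc1 : ∀ a ∈ A, ⁅a, t⁆ ∈ A1 := fun a ha => by
    refine (hA1 _).2 ⟨hcA a ha, ?_⟩
    have h1 := h.zconj ht2 (K.inv_mem (K.mul_mem (h.le ha) htK))
    have e : ⁅⁅a, t⁆, t⁆ = ⁅a, t⁆ * (a * t * ((a * t)⁻¹ * (t * t) * (a * t)⁻¹⁻¹) * (t * t)⁻¹ *
        a⁻¹ * t⁻¹) := by
      simp only [commutatorElement_def]; group
    have e2 : ⁅a, t⁆ * (a * t * (t * t) * (t * t)⁻¹ * a⁻¹ * t⁻¹) = ⁅a, t⁆ * ⁅a, t⁆ := by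
      simp only [commutatorElement_def]; group
    rw [e, h1, e2]
    exact zpowers_le.2 hz (h.sq _ (hcA a ha))
  let f : A ⧸ A1.subgroupOf A → A1 ⧸ D.subgroupOf A1 := fun q =>
    QuotientGroup.mk ⟨⁅(q.out : G), t⁆, hc1 _ q.out.2⟩
  have hf : Function.Injective f := by
    intro q r e
    have e1 := QuotientGroup.eq.1 e
    rw [mem_subgroupOf] at e1
    rw [← q.out_eq, ← r.out_eq]
    refine QuotientGroup.eq.2 ?_
    rw [mem_subgroupOf, hA1]
    refine ⟨(q.out⁻¹ * r.out).2, ?_⟩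
    have e2 : ⁅((q.out⁻¹ * r.out : A) : G), t⁆ = ((q.out : G)⁻¹ * ⁅(q.out : G), t⁆) *
        (⁅(q.out : G), t⁆⁻¹ * ⁅(r.out : G), t⁆) * ((q.out : G)⁻¹ * ⁅(q.out : G), t⁆)⁻¹ := by
      simp only [commutatorElement_def]; push_cast; group
    rw [e2]
    exact hAD _ (A.mul_mem (A.inv_mem q.out.2) (hcA _ q.out.2)) _ e1
  have h1 := Nat.card_le_card_of_injective f hf
  have h2 := card_eq_card_quotient_mul_card_subgroup (A1.subgroupOf A)
  have h3 := card_eq_card_quotient_mul_card_subgroup (D.subgroupOf A1)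
  rw [Nat.card_congr (subgroupOfEquivOfLe hA1A).toEquiv] at h2
  rw [Nat.card_congr (subgroupOfEquivOfLe hD).toEquiv] at h3
  calc Nat.card A * Nat.card D
      = Nat.card (A ⧸ A1.subgroupOf A) * Nat.card D * Nat.card A1 := by rw [h2]; ring
    _ ≤ Nat.card (A1 ⧸ D.subgroupOf A1) * Nat.card D * Nat.card A1 := by gcongr
    _ = Nat.card A1 * Nat.card A1 := by rw [← h3]

/-- Coupling. `C = {c ∈ K | ∀ d ∈ A ⊓ B, ⁅c,d⁆ ∈ ⟨z⟩}` is a subgroup containing `A`, `B`, `t`.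
`(A ⊓ N(B)) ⊔ B` and `A ⊔ ⟨t⟩` are 2-subgroups of `C`; `exists_two_over` gives `c ∈ C` and
`R ≤ C`; `cj c A = B` and `R ≤ N(B)` by `WCl.eq`. -/
theorem couple (h : AbZ K A z) (hw : WCl K A) {t k : G} (ht : t ∈ normalizer (A : Set G))
    (hk : k ∈ K) (htk : t ∈ cj k A) :
    ∃ c ∈ K, cj c A = cj k A ∧ (∀ d ∈ A ⊓ cj k A, ⁅c, d⁆ ∈ zpowers z) ∧
      ∃ R : Subgroup G, R ≤ K ∧ IsPGroup 2 R ∧ R ≤ normalizer (cj k A : Set G) ∧ cj k A ≤ R ∧
        A ⊓ normalizer (cj k A : Set G) ≤ R ∧ c * t * c⁻¹ ∈ R ∧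
        ∀ r ∈ R, ∀ d ∈ A ⊓ cj k A, ⁅r, d⁆ ∈ zpowers z := by
  have hB := h.cj hk
  set B := cj k A with hBdef
  let C : Subgroup G :=
    { carrier := {c | c ∈ K ∧ ∀ d ∈ A ⊓ B, ⁅c, d⁆ ∈ zpowers z}
      one_mem' := ⟨K.one_mem, fun d _ => by simp⟩
      mul_mem' := by
        rintro a b ⟨ha, ha'⟩ ⟨hb, hb'⟩
        refine ⟨K.mul_mem ha hb, fun d hd => ?_⟩
        have e : ⁅a * b, d⁆ = a * ⁅b, d⁆ * a⁻¹ * ⁅a, d⁆ := by
          simp only [commutatorElement_def]; group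
        rw [e, h.zconj (hb' d hd) ha]; exact mul_mem (hb' d hd) (ha' d hd)
      inv_mem' := by
        rintro a ⟨ha, ha'⟩
        refine ⟨K.inv_mem ha, fun d hd => ?_⟩
        have e : ⁅a⁻¹, d⁆ = a⁻¹ * ⁅a, d⁆⁻¹ * a⁻¹⁻¹ := by
          simp only [commutatorElement_def]; group
        rw [e, h.zconj (inv_mem (ha' d hd)) (K.inv_mem ha)]; exact inv_mem (ha' d hd) }
  have hAC : A ≤ C := fun a ha => ⟨h.le ha, fun d hd => h.comm ha hd.1⟩
  have hBC : B ≤ C := fun a ha => ⟨hB.le ha, fun d hd => hB.comm ha hd.2⟩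
  have hP1 : IsPGroup 2 ((A ⊓ normalizer (B : Set G)) ⊔ B : Subgroup G) :=
    IsPGroup.to_sup_of_normal_right' (h.isPGroup.to_le inf_le_left) hB.isPGroup inf_le_right
  have hP2 : IsPGroup 2 (zpowers t ⊔ A : Subgroup G) :=
    IsPGroup.to_sup_of_normal_right' (hB.isPGroup.to_le (zpowers_le.2 htk)) h.isPGroup
      (zpowers_le.2 ht)
  obtain ⟨c, hc, R, hR, hRC, h1, h2⟩ := exists_two_over (N := C) hP1 hP2
    (sup_le (inf_le_left.trans hAC) hBC) (sup_le (zpowers_le.2 (hBC htk)) hAC)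
  have hBR : B ≤ R := le_sup_right.trans h1
  refine ⟨c, hc.1, hw.eq hR hc.1 hk ((cj_mono c le_sup_right).trans h2) hBR, hc.2, R,
    fun r hr => (hRC hr).1, hR, fun r hr => ?_, hBR, le_sup_left.trans h1,
    h2 (conj_mem_cj.2 (mem_sup_left (mem_zpowers t))), fun r hr => (hRC hr).2⟩
  rw [← cj_eq_iff, hBdef, cj_cj]
  refine hw.eq hR (K.mul_mem (hRC hr).1 hk) hk ?_ hBR
  rw [← cj_cj]
  exact (cj_mono r hBR).trans (cj_eq_iff.2 (le_normalizer hr)).le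

end Cfsg.Agent.R24
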