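import Cfsg.Agent.R24.Tr

/-!
# S3318: finite facts about the octad group `S0 = 2^4:A8` on the Golay module
-/

set_option autoImplicit false

namespace Cfsg.Agent.R24

open Cfsg Cfsg.Agent.Comp Cfsg.Agent.Spor Cfsg.Agent.Spor.M24C Subgroup Md
open scoped Pointwise commutatorElement

namespace GF

def L1 : List ℕ := [984818244535754528103549039458486304, 357237464246492573439481816903876836, 227549275050991006511470574036955362, 796302008289681575552848296242327658, 552025338846149282114090619225900138, 769177878997270091247005491421119591, 732584369847545006113661951950193738, 855084186072112802539958605677891692, 803769450874188740292211823989890177, 858733388930714532969804840608960834, 647116829010946006293994868404526092, 350048500962722387965700908305854787, 756102303175831037477958186845931904, 845310511851303133807832566509931905, 920716634426574338522988091595106695]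

def L2 : List ℕ := [984818244535754528103549039458486304, 359791317358303883861385979676920864, 354999476763767519795224613227600938, 555099706175549181567225251821322465, 648680077369511070308644851316425868, 484447284205347661388115749809164332, 274509200575771366621408306324113444, 855701528039382270556390981372349664, 475918549533525190098164488645712940, 979657444576120045473534661246552108, 841709047211103066699008526270136706, 675227623504954210762287152380481633, 973941798679085453572474510714667236, 234310330267722483115909666441498626]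

def c7 : ℕ := 400764142536329319871717987569467628
def g1 : ℕ := 727315061393635170078153473540587585
def g2 : ℕ := 640404973108311090499622962997494851

noncomputable def s0 : M24 := mc (eT 1)
noncomputable def s1 : M24 := mc (eT 4)
theorem cd_s0 : cd s0 = eT 1 := cd_eT (by norm_num)
theorem cd_s1 : cd s1 = eT 4 := cd_eT (by norm_num)

theorem ok1 : allL L1 go.okS = true := by decide +kernel
theorem ok2 : allL L2 (fun c => and' (go.okS c) (Nat.beq (conjC c (eT 1)) (eT 1))) = true := by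
  decide +kernel
theorem ok7 : go.okS c7 = true := by decide +kernel
theorem okg1 : go.okS g1 = true := by decide +kernel
theorem okg2 : go.okS g2 = true := by decide +kernel

theorem tr1 {r : M24} (hr : r ∈ go.E) (h : r ≠ 1) : ∃ g ∈ go.S0, g * s0 * g⁻¹ = r := by
  obtain ⟨b, hb, e⟩ := mem_goE.1 hr
  have := (allL_iff _ _).1 (show allL goEl (fun b => force (eT b) fun x => or' (Nat.beq x oneC)
    (anyL L1 fun c => Nat.beq (conjC c (eT 1)) x)) = true by decide +kernel) b hb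
  simp only [force_eq, or'_eq_true, anyL_iff, beq_iff, e] at this
  obtain ⟨c, hc, e1⟩ := this.resolve_left fun e1 => h (cd_inj (e1.trans cd_one.symm))
  have k := (allL_iff _ _).1 ok1 c hc
  exact ⟨mc c, mem_okS k, cd_inj (by rw [cd_conj, cd_okS k, cd_s0, e1])⟩

theorem tr2 {r r' : M24} (hr : r ∈ go.E) (hr' : r' ∈ go.E) (h : r ≠ 1) (h' : r' ≠ 1) (n : r ≠ r') :
    ∃ g ∈ go.S0, g * s0 * g⁻¹ = r ∧ g * s1 * g⁻¹ = r' := by
  obtain ⟨u, hu, rfl⟩ := tr1 hr h
  obtain ⟨b, hb, e⟩ := mem_goE.1 (goE_conj _ (inv_mem hu) _ hr')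
  have := (allL_iff _ _).1 (show allL goEl (fun b => force (eT b) fun x => or' (Nat.beq x oneC)
    (or' (Nat.beq x (eT 1)) (anyL L2 fun c => Nat.beq (conjC c (eT 4)) x))) = true by
      decide +kernel) b hb
  simp only [force_eq, or'_eq_true, anyL_iff, beq_iff, e] at this
  obtain ⟨c, hc, e1⟩ := (this.resolve_left fun e1 => h' (conj_eq_one_iff.1
    (cd_inj (e1.trans cd_one.symm)))).resolve_left fun e1 => n (by
      rw [← cd_inj (e1.trans cd_s0.symm)]; group)
  have k := (allL_iff _ _).1 ok2 c hc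
  rw [and'_eq_true, beq_iff] at k
  have e2 : mc c * s0 * (mc c)⁻¹ = s0 := cd_inj (by rw [cd_conj, cd_okS k.1, cd_s0, k.2])
  have e3 : mc c * s1 * (mc c)⁻¹ = u⁻¹ * r' * u⁻¹⁻¹ := cd_inj (by rw [cd_conj, cd_okS k.1, cd_s1, e1])
  refine ⟨u * mc c, mul_mem hu (mem_okS k.1), ?_, ?_⟩
  · conv_rhs => rw [← e2]
    group
  · rw [show r' = u * (u⁻¹ * r' * u⁻¹⁻¹) * u⁻¹ by group, ← e3]; group

theorem c7_pow : mc c7 ^ 7 = 1 := cd_inj (by rw [cd_pow, cd_okS ok7, cd_one]; decide +kernel)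

theorem c7_ne : mc c7 ≠ 1 := fun h => absurd ((cd_okS ok7).symm.trans (h ▸ cd_one)) (by decide)

theorem aux1 : force (go.ft (eT 1)) (fun S => force (go.ft c7) fun T => allB 2048 fun a =>
    force (fa T a) fun x => and' (or' (tb gWm a) (not' (tb gWm (Nat.xor x a))))
      (or' (not' (Nat.beq (fa S a) a))
        (and' (or' (tb gWm a) (anyLT 7 fun i =>
            tb gWm (Nat.xor (getL 0 [15, 393, 636, 998, 1034, 986, 851] i) a)))
          (and' (anyL [0, 149, 134, 19, 15, 154, 137, 28] fun v => and' (Nat.beq (fa S v) v)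
              (tb gWm (Nat.xor (Nat.xor (fa T v) v) a)))
            (or' (not' (tb gWm a)) (and' (or' (not' (go.fz T a)) (or' (Nat.beq a 0) (Nat.beq a 1183)))
              (anyL [0, 5, 3, 6, 66, 71, 65, 68, 64, 69, 67, 70, 2, 7, 1, 4] fun b =>
                Nat.beq (Nat.xor (fa S b) b) a))))))) = true := by
  decide +kernel

theorem spec1 {a : ℕ} (ha : a < 2048) : (go.inW (go.act (cd (mc c7)) a ^^^ a) → go.inW a) ∧
    (go.act (cd s0) a = a → (¬ go.inW a → ∃ i, go.inW (go.act (cd (mc c7 ^ i)) 15 ^^^ a)) ∧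
      (∃ v < 2048, go.act (cd s0) v = v ∧ go.inW (go.act (cd (mc c7)) v ^^^ v ^^^ a)) ∧
      (go.inW a → (go.cz (cd (mc c7)) a = true → a = 0 ∨ a = go.z0) ∧
        ∃ b < 2048, go.act (cd s0) b ^^^ b = a)) := by
  have h := aux1
  rw [force_eq, force_eq, allB_iff, ← cd_s0, ← cd_okS ok7] at h
  have h := h a ha
  simp only [force_eq, and'_eq_true, or'_eq_true, not'_eq_true, anyL_iff, anyLT_iff, beq_iff, tb_eq,
    fa_ft _ _ ha, fz_ft _ _ ha] at h
  obtain ⟨h1, h2⟩ := h
  refine ⟨fun h => (inW_go ha).2 (h1.resolve_right (not_not.2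
    ((inW_go (xor_lt (go.act_lt _ _) ha)).1 h))), fun h => ?_⟩
  obtain ⟨h2, ⟨v, hv, h3, h4⟩, h5⟩ := h2.resolve_left (not_not.2 h)
  have v1 : v < 2048 := by clear h3 h4; revert v; decide
  rw [fa_ft _ _ v1] at h3 h4
  refine ⟨fun n => ?_, ⟨v, v1, h3, (inW_go (xor_lt (xor_lt (go.act_lt _ _) v1) ha)).2 h4⟩, fun w => ?_⟩
  · obtain ⟨i, hi, h6⟩ := h2.resolve_left fun h6 => n ((inW_go ha).2 h6)
    refine ⟨i, (inW_go (xor_lt (go.act_lt _ _) ha)).2 ?_⟩
    rwa [cd_pow, cd_okS ok7, (beq_iff _ _).1 ((allLT_iff _ _).1 (show allLT 7 (fun i => Nat.beq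
      (go.act (powC c7 i) 15) (getL 0 [15, 393, 636, 998, 1034, 986, 851] i)) = true by
        decide +kernel) i hi)]
  · obtain ⟨h6, b, hb, h7⟩ := h5.resolve_left (not_not.2 ((inW_go ha).1 w))
    have b1 : b < 2048 := by clear h7; revert b; decide
    rw [fa_ft _ _ b1] at h7
    exact ⟨fun c => h6.resolve_left (not_not.2 c), b, b1, h7⟩

theorem aux2 : force (go.ft (eT 1)) (fun S => and' (Nat.beq (cntPow 11 fun a => Nat.beq (fa S a) a) 128)
    (allB 2048 fun a => tb gWm (Nat.xor (fa S a) a))) = true := by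
  decide +kernel

theorem aux4 : force (go.ft g1) (fun S => force (go.ft g2) fun T => force (go.ft (mulC (eT 1) (eT 4)))
    fun U => allB 2048 fun a => or' (not' (tb gWm (Nat.xor (fa S a) a)))
      (or' (not' (tb gWm (Nat.xor (fa T a) a))) (go.fz U a))) = true := by
  decide +kernel

end GF

open GF

theorem gf1 {s : M24} (hs : s ∈ go.E) (h1 : s ≠ 1) : ∃ c ∈ go.S0, c * s = s * c ∧
    (∀ a < 2048, ∀ b < 2048, go.act (cd s) a = a → go.act (cd s) b = b → ¬ go.inW a →
      ¬ go.inW b → ∃ i : ℕ, go.inW (go.act (cd (c ^ i)) a ^^^ b)) ∧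
    (∀ u < 2048, go.act (cd s) u = u → ∃ v < 2048, go.act (cd s) v = v ∧
      go.inW (go.act (cd c) v ^^^ v ^^^ u)) ∧
    (∀ w < 2048, go.inW w → go.act (cd s) w = w → go.cz (cd c) w = true → w = 0 ∨ w = go.z0) := by
  obtain ⟨g, hg, rfl⟩ := tr1 hs h1
  have hc := mem_okS ok7
  refine ⟨g * mc c7 * g⁻¹, mul_mem (mul_mem hg hc) (inv_mem hg), ?_, go.tr_forall g fun a ha =>
    go.tr_forall g fun b hb => ?_, go.tr_forall g fun u hu => ?_, go.tr_forall g fun w hw => ?_⟩
  · rw [conj_mul, conj_mul, show mc c7 * s0 = s0 * mc c7 from cd_inj (by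
      rw [cd_mul, cd_mul, cd_okS ok7, cd_s0]; decide +kernel)]
  · rw [tr_fix g _ ha, tr_fix g _ hb, tr_inW goE_conj hg ha, tr_inW goE_conj hg hb]
    intro h2 h3 h4 h5
    obtain ⟨i, hi⟩ := ((spec1 ha).2 h2).1 h4
    obtain ⟨j, hj⟩ := ((spec1 hb).2 h3).1 h5
    refine ⟨j + 6 * i, ?_⟩
    rw [conj_pow, tr_xor g _ ha hb, tr_inW goE_conj hg (xor_lt (go.act_lt _ _) hb)]
    have := tr_inW_xor (go.act_lt _ _) (xor_lt (go.act_lt _ _) hb)
      ((tr_inW goE_conj (pow_mem hc (j + 6 * i)) (xor_lt (go.act_lt _ _) ha)).2 hi) hj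
    rwa [go.act_xor _ (go.act_lt _ _) ha, ← go.act_mul _ _ (by norm_num), ← pow_add,
      show j + 6 * i + i = j + 7 * i by ring, pow_add, pow_mul, c7_pow, one_pow, mul_one,
      Nat.xor_comm _ (go.act _ a), Nat.xor_assoc, ← Nat.xor_assoc (go.act _ 15), Nat.xor_self,
      Nat.zero_xor] at this
  · rw [tr_fix g _ hu]
    intro h2
    obtain ⟨v, hv, h3, h4⟩ := ((spec1 hu).2 h2).2.1
    refine ⟨_, go.act_lt (cd g) v, (tr_fix g _ hv).2 h3, ?_⟩
    rwa [tr_xor g _ hv hv, ← go.act_xor g (xor_lt (go.act_lt _ _) hv) hu,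
      tr_inW goE_conj hg (xor_lt (xor_lt (go.act_lt _ _) hv) hu)]
  · rw [tr_fix g _ hw, tr_inW goE_conj hg hw, tr_cz hg _ hw, tr_z hg hw]
    exact fun h2 h3 => (((spec1 hw).2 h3).2.2 h2).1

/-- `⁅V,s⁆ = C_W(s)` has order 16 and `C_V(s)` has order 128. -/
theorem gf2 {s : M24} (hs : s ∈ go.E) (h1 : s ≠ 1) :
    (∀ a < 2048, (go.inW a ∧ go.act (cd s) a = a) ↔ ∃ b < 2048, go.act (cd s) b ^^^ b = a) ∧
    (go.fx (zpowers s)).card = 128 := by
  obtain ⟨g, hg, rfl⟩ := tr1 hs h1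
  have h := aux2
  rw [force_eq, and'_eq_true, beq_iff, allB_iff, cntPow_eq, ← cd_s0] at h
  refine ⟨go.tr_forall g fun a ha => ?_, ?_⟩
  · rw [tr_fix g _ ha, tr_inW goE_conj hg ha]
    constructor
    · rintro ⟨h2, h3⟩
      obtain ⟨b, hb, e⟩ := (((spec1 ha).2 h3).2.2 h2).2
      exact ⟨_, go.act_lt (cd g) b, by rw [tr_xor g _ hb hb, e]⟩
    · rintro ⟨b, hb, e⟩
      revert e
      refine go.tr_forall g (P := fun b => go.act (cd (g * s0 * g⁻¹)) b ^^^ b = go.act (cd g) a →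
        go.inW a ∧ go.act (cd s0) a = a) (fun b hb e => ?_) b hb
      rw [tr_xor g _ hb hb, tr_eq g (xor_lt (go.act_lt _ _) hb) ha] at e
      subst e
      have := h.2 b hb
      rw [fa_ft _ _ hb, tb_eq] at this
      refine ⟨(inW_go ha).2 this, ?_⟩
      rw [go.act_xor _ (go.act_lt _ _) hb, ← go.act_mul _ _ hb, show s0 * s0 = 1 from cd_inj (by
        rw [cd_mul, cd_s0, cd_one]; decide +kernel), go.act_one hb, Nat.xor_comm]
  · rw [← h.1]
    refine (Finset.card_bij (fun a _ => go.act (cd g) a) (fun a ha => ?_) (fun a ha b hb e => ?_)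
      fun b hb => ?_).symm
    · obtain ⟨h2, h3⟩ := Finset.mem_filter.1 ha
      have h2 : a < 2048 := Finset.mem_range.1 h2
      rw [fa_ft _ _ h2, beq_iff] at h3
      exact Finset.mem_filter.2 ⟨Finset.mem_range.2 (go.act_lt _ _), fun x hx =>
        (go.mem_stab (go.act_lt _ _)).1 (zpowers_le.2 ((go.mem_stab (go.act_lt _ _)).2
          ((tr_fix g _ h2).2 h3)) hx)⟩
    · exact go.act_inj g (Finset.mem_range.1 (Finset.mem_filter.1 ha).1)
        (Finset.mem_range.1 (Finset.mem_filter.1 hb).1) e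
    · obtain ⟨h2, h3⟩ := Finset.mem_filter.1 hb
      have h2 : b < 2048 := Finset.mem_range.1 h2
      have h4 := go.act_lt (cd g⁻¹) b
      refine ⟨_, Finset.mem_filter.2 ⟨Finset.mem_range.2 h4, ?_⟩, go.act_act_inv g h2⟩
      rw [fa_ft _ _ h4, beq_iff, ← tr_fix g _ h4, go.act_act_inv g h2]
      exact h3 _ (mem_zpowers _)

/-- `S0` is doubly transitive on the involutions of `E`. -/
theorem gf3 {s s' r r' : M24} (hs : s ∈ go.E) (hs' : s' ∈ go.E) (hr : r ∈ go.E) (hr' : r' ∈ go.E)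
    (h1 : s ≠ 1) (h1' : s' ≠ 1) (h : s ≠ s') (h2 : r ≠ 1) (h2' : r' ≠ 1) (h' : r ≠ r') :
    ∃ g ∈ go.S0, g * s * g⁻¹ = r ∧ g * s' * g⁻¹ = r' := by
  obtain ⟨g, hg, rfl, rfl⟩ := tr2 hs hs' h1 h1' h
  obtain ⟨k, hk, rfl, rfl⟩ := tr2 hr hr' h2 h2' h'
  exact ⟨k * g⁻¹, mul_mem hk (inv_mem hg), by group, by group⟩

theorem gf3' {s r : M24} (hs : s ∈ go.E) (hr : r ∈ go.E) (h1 : s ≠ 1) (h2 : r ≠ 1) :
    ∃ g ∈ go.S0, g * s * g⁻¹ = r := by
  obtain ⟨g, hg, rfl⟩ := tr1 hs h1
  obtain ⟨k, hk, rfl⟩ := tr1 hr h2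
  exact ⟨k * g⁻¹, mul_mem hk (inv_mem hg), by group⟩

theorem gf4 {s s' : M24} (hs : s ∈ go.E) (hs' : s' ∈ go.E) (h1 : s ≠ 1) (h1' : s' ≠ 1)
    (h : s ≠ s') {a : ℕ} (ha : a < 2048) (hf : ∀ g ∈ go.S0, g * s = s * g → g * s' = s' * g →
      go.inW (go.act (cd g) a ^^^ a)) : go.cz (cd (s * s')) a = true := by
  obtain ⟨g, hg, rfl, rfl⟩ := tr2 hs hs' h1 h1' h
  obtain ⟨a, rfl, ha'⟩ := go.tr_ex g ha
  replace ha := ha'
  have k : ∀ c, go.okS c = true → mulC c (eT 1) = mulC (eT 1) c → mulC c (eT 4) = mulC (eT 4) c →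
      tb gWm (Nat.xor (fa (go.ft c) a) a) = true := fun c c1 c2 c3 => by
    have := hf (g * mc c * g⁻¹) (mul_mem (mul_mem hg (mem_okS c1)) (inv_mem hg))
      (by rw [conj_mul, conj_mul, show mc c * s0 = s0 * mc c from cd_inj (by
        rw [cd_mul, cd_mul, cd_okS c1, cd_s0, c2])])
      (by rw [conj_mul, conj_mul, show mc c * s1 = s1 * mc c from cd_inj (by
        rw [cd_mul, cd_mul, cd_okS c1, cd_s1, c3])])
    rw [tr_xor g _ ha ha, tr_inW goE_conj hg (xor_lt (go.act_lt _ _) ha),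
      inW_go (xor_lt (go.act_lt _ _) ha), ← fa_ft _ _ ha, cd_okS c1] at this
    rwa [tb_eq]
  have h := aux4
  simp only [force_eq, allB_iff, or'_eq_true, not'_eq_true] at h
  rw [conj_mul, tr_cz hg _ ha, ← fz_ft _ _ ha, cd_mul, cd_s0, cd_s1]
  exact ((h a ha).resolve_left (not_not.2 (k _ okg1 (by decide +kernel) (by decide +kernel)))).resolve_left
    (not_not.2 (k _ okg2 (by decide +kernel) (by decide +kernel)))

/-- Elements of order 7 of `S0` have no fixed point on `V/W`. -/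
theorem gf6 {c : M24} (hc : c ∈ go.S0) (h7 : c ^ 7 = 1) (h1 : c ≠ 1) {a : ℕ} (ha : a < 2048)
    (h : go.inW (go.act (cd c) a ^^^ a)) : go.inW a := by
  have := Fact.mk (by norm_num : Nat.Prime 7)
  have k : ∀ x : go.S0, (x : M24) ^ 7 = 1 → (x : M24) ≠ 1 →
      Nat.card (zpowers x) = 7 ^ (Nat.card go.S0).factorization 7 := fun x h7 h1 => by
    rw [Nat.card_zpowers, ← orderOf_coe, orderOf_eq_prime h7 h1, card_S0_go,
      show (322560 : ℕ).factorization 7 = 1 by
        rw [← Nat.primeFactorsList_count_eq]; norm_num [Nat.primeFactorsList]]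
    rfl
  obtain ⟨g, hg⟩ := exists_conj_of_sylow (by norm_num) (k ⟨c, hc⟩ h7 h1) (k ⟨_, mem_okS ok7⟩ c7_pow c7_ne)
  obtain ⟨n, hn⟩ := (mem_powers_iff_mem_zpowers.2 ((hg (g * ⟨_, mem_okS ok7⟩ * g⁻¹)).2
    (by simp [mul_assoc])))
  have h2 := tr_pow goE_conj hc ha h n
  rw [show c ^ n = g * mc c7 * (g : M24)⁻¹ from congrArg Subtype.val hn] at h2
  obtain ⟨a, rfl, ha'⟩ := go.tr_ex g ha
  replace ha := ha'
  rw [tr_xor _ _ ha ha, tr_inW goE_conj g.2 (xor_lt (go.act_lt _ _) ha)] at h2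
  exact (tr_inW goE_conj g.2 ha).2 ((spec1 ha).1 h2)

end Cfsg.Agent.R24
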