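import Cfsg.Agent.R24.GoT1
import Cfsg.Agent.R24.Enum3

/-!
# S3318: finite facts about the trio group on the Golay module
-/

set_option autoImplicit false

namespace Cfsg.Agent.R24

open Cfsg Cfsg.Agent.Comp Cfsg.Agent.Spor Cfsg.Agent.Spor.M24C Subgroup
open scoped Pointwise commutatorElement

/-- The involutions with 128 fixed vectors. -/
def a2M : ℕ := 0x7ffffffc0c0810a0ffc36ac060fc99043112a050a0afac09
/-- The involutions outside `E` with `z0 ∉ ⁅V,τ⁆`. -/
def iiM : ℕ := 0x30393540400000039030ac0005c90001012800000a3a009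
/-- The vectors fixed by `co.E`. -/
def hC : ℕ := 0x80010000800100000000000000000000000000000000000000000000000000008001000080010000000000000000000000000000000000000000000000000000000000000000000000000000000000000000000000000000000000000000000000000000000000000000000000000000000000000000000000000000000000000000000000000000000000000000000000008001000080010000000000000000000000000000000000000000000000000000800100008001

/-- The number of vectors fixed by `iv i`. -/
noncomputable def nF (i : ℕ) : ℕ := ite' (tb a2M i) 128 64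

theorem nF_aux : force ims (fun I => allB 191 fun i => force (iv i) fun c =>
    and' (fs (go.fm c) fun M => cntF (Nat.beq (nF i)) 200 M 0)
      (or' (tb eM i) (or' (tb iiM i) (tb (dig 2048 (onz 2048) I i) 1183)))) = true := by
  decide +kernel

theorem mem_fx_zp (g : M24) {a : ℕ} :
    a ∈ go.fx (zpowers g) ↔ a < 2048 ∧ go.act (cd g) a = a := by
  rw [go.mem_fx]
  exact and_congr_right fun ha => ⟨fun h => h g (mem_zpowers g), fun h x hx =>
    (go.mem_stab ha).1 (zpowers_le.2 ((go.mem_stab ha).2 h) hx)⟩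

theorem nF_spec {i : ℕ} (hi : i < 191) : (go.fx (zpowers (mc (iv i)))).card = nF i ∧
    (mc (iv i) ∈ go.E ∨ iiM.testBit i = true ∨
      ∃ b < 2048, go.act (cd (mc (iv i))) b ^^^ b = go.z0) := by
  have h := (allB_iff _ _).1 ((force_eq _ _).symm.trans nF_aux) i hi
  simp only [force_eq, fs_eq, and'_eq_true, or'_eq_true, tb_eq] at h
  refine ⟨?_, h.2.imp (mem_of_eM hi) (Or.imp id (testBit_ims hi _).1)⟩
  rw [(beq_iff _ _).1 (of_cntF h.1)]
  refine congrArg Finset.card (Finset.ext fun a => ?_)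
  rw [mem_bs, mem_fx_zp, ← go.testBit_fm, cd_iv hi]

/-- The test for `listI`. -/
noncomputable def tstI (I F p C : ℕ) : Bool :=
  allB 191 fun τ => or' (tb eM τ) (or' (not' (sub C (dig 2048 (onz 2048) F τ)))
    (fs (Nat.land C (dig 2048 (onz 2048) I τ)) fun J =>
      cntF (fun j => not' (Nat.beq p (Nat.mul (nF τ) j))) 200 J 0))

/-- The test for `listII`. -/
noncomputable def tstII (I F p c C : ℕ) : Bool :=
  allF (fun τ => or' (not' (Nat.beq p (Nat.mul 2 (nF τ))))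
    (fs (Nat.land C (dig 2048 (onz 2048) F τ)) fun C2 => cntF (fun c2 =>
      fs (Nat.land C2 (dig 2048 (onz 2048) I τ)) fun C3 =>
        cntF (fun c3 => Nat.blt (Nat.mul 2 c2) (Nat.mul c c3)) 200 C3 0) 200 C2 0)) 64 iiM

/-- The test at one subgroup. -/
noncomputable def tstG (I F r X C : ℕ) : Bool :=
  or' (Nat.beq X yM) (cntF (fun c => force (Nat.mul (Nat.pow 2 r) c) fun p =>
    and' (tstII I F p c C) (or' (Nat.beq X hM) (and' (not' (Nat.beq r 6))
      (or' (Nat.blt p 64) (tstI I F p C))))) 200 C 0)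

theorem chkG : force ims (fun I => go.runG (tstG I)) = true := by decide +kernel

theorem of_chkG {X : Subgroup M24} (hX : X ≤ Th) (h2 : ∀ x ∈ X, x * x = 1) (h1 : X ≠ ⊥)
    (hY : X ≠ trY) : ∃ C p, bs C = go.fx X ∧ p = Nat.card X * (go.fx X).card ∧
      tstII ims go.fms p (go.fx X).card C = true ∧
      (X = co.E ∨ Nat.card X ≠ 64 ∧ (p < 64 ∨ tstI ims go.fms p C = true)) := by
  have h0 := chkG
  rw [force_eq] at h0
  obtain ⟨r, Xm, C, h3, h4⟩ := Md.of_runG h0 hX h2 h1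
  rw [tstG, or'_eq_true, beq_iff] at h4
  have h5 := of_cntF (h4.resolve_left fun e => hY (h3.toXM.eq (e ▸ xm_trY)))
  simp only [force_eq, and'_eq_true, or'_eq_true, not'_eq_true, beq_iff, blt_iff, h3.bs_cm,
    Nat.mul_eq, Nat.pow_eq, ← h3.card] at h5
  refine ⟨C, _, h3.bs_cm, rfl, h5.1, h5.2.imp (fun e : Xm = hM => h3.toXM.eq (e ▸ xm_coE))
    fun h => ⟨fun e => h.1 ?_, h.2⟩⟩
  rw [h3.card] at e
  exact Nat.pow_right_injective le_rfl (show 2 ^ r = 2 ^ 6 from e)

/-- The columns of the elements of `co.E`. -/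
noncomputable def hcs : ℕ := pk 121 64 fun b => force (eT b) go.cols

theorem app_hcs {b a : ℕ} (hb : b < 64) (ha : a < 2048) :
    app (dig 121 (onz 121) hcs b) a = go.act (eT b) a ^^^ a := by
  have e := okM_of_inH (inH_eT (show b < 1024 by omega))
  rw [hcs, dig_pk _ hb, force_eq]
  · simpa only [e] using (go.col (mc (eT b))).app_eq ha
  · intro k _ j hj
    simp only [force_eq, Md.cols, pk, testBit_orLT] at hj
    obtain ⟨l, hl, h⟩ := hj
    rw [Nat.shiftLeft_eq', Nat.shiftLeft_eq', Nat.testBit_shiftLeft, Bool.and_eq_true,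
      Nat.one_shiftLeft] at h
    have := lt_of_testBit (xor_lt (go.act_lt _ _) (pow_lt hl)) h.2
    rw [Nat.mul_eq] at this
    omega

/-- The commutators of `a` with the elements `eT (f k)`, `k < n`. -/
noncomputable def txM (H n : ℕ) (f : ℕ → ℕ) (a : ℕ) : ℕ :=
  orLT n fun k => force (f k) fun b => Nat.shiftLeft 1 (app (dig 121 (onz 121) H b) a)

theorem testBit_txM {n : ℕ} {f : ℕ → ℕ} (hf : ∀ k < n, f k < 64) {a : ℕ} (ha : a < 2048) (v : ℕ) :
    (txM hcs n f a).testBit v = true ↔ ∃ k < n, go.act (eT (f k)) a ^^^ a = v := by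
  rw [txM, testBit_orLT]
  refine exists_congr fun k => and_congr_right fun hk => ?_
  rw [force_eq, Nat.shiftLeft_eq', Nat.one_shiftLeft, Nat.testBit_two_pow, decide_eq_true_eq,
    app_hcs (hf k hk) ha]

theorem hC_aux : force hcs (fun H => and' (allB 2048 fun a => ite' (tb hC a)
      (Nat.beq (txM H 64 id a) 1) (fs (txM H 8 (getL 0 [0, 2, 29, 31, 1, 8, 4, 32]) a) fun M =>
        cntF (Nat.blt 4) 10 M 0))
    (force ims fun I => force go.fms fun F => allF (fun t => fs (txM H 64 id t) fun M =>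
      cntF (fun j => allB 191 fun τ => or' (tb eM τ) (or' (not' (sub hC (dig 2048 (onz 2048) F τ)))
        (or' (not' (Nat.beq 1024 (Nat.mul (nF τ) j)))
          (not' (Nat.beq M (Nat.land hC (dig 2048 (onz 2048) I τ))))))) 100 M 0) 64 gWm))
    = true := by decide +kernel

theorem act_eT {b : ℕ} (hb : b < 64) : ∃ x ∈ co.E, cd x = eT b :=
  have e := okM_of_inH (inH_eT (show b < 1024 by omega))
  ⟨mc (eT b), mem_coE.2 ⟨b, hb, e.symm⟩, e⟩

theorem hC_spec {a : ℕ} (ha : a < 2048) : (hC.testBit a = true ∧ a ∈ go.fx co.E) ∨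
    (¬ hC.testBit a = true ∧ ∀ U : Finset ℕ, (∀ x ∈ co.E, go.act (cd x) a ^^^ a ∈ U) →
      4 < U.card) := by
  have h := hC_aux
  rw [force_eq, and'_eq_true] at h
  have h1 := (allB_iff _ _).1 h.1 a ha
  rw [ite'_eq, tb_eq] at h1
  split_ifs at h1 with h2
  · refine .inl ⟨h2, go.mem_fx.2 ⟨ha, fun x hx => ?_⟩⟩
    obtain ⟨b, hb, e⟩ := mem_coE.1 hx
    have := (testBit_txM (n := 64) (f := id) (fun _ h => h) ha _).2 ⟨b, hb, rfl⟩
    rwa [(beq_iff _ _).1 h1, Nat.testBit_one_eq_true_iff_self_eq_zero, id, e, xor_eq_zero'] at this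
  · refine .inr ⟨h2, fun U hU => ?_⟩
    rw [fs_eq] at h1
    refine lt_of_lt_of_le ((blt_iff _ _).1 (of_cntF h1)) (Finset.card_le_card fun v hv => ?_)
    have hf : ∀ k < 8, getL 0 [0, 2, 29, 31, 1, 8, 4, 32] k < 64 := by decide +kernel
    obtain ⟨k, hk, rfl⟩ := (testBit_txM hf ha v).1 (mem_bs.1 hv)
    obtain ⟨x, hx, e⟩ := act_eT (hf k hk)
    exact e ▸ hU x hx

theorem bs_hC : bs hC = go.fx co.E := by
  ext a
  rw [mem_bs]
  constructor
  · intro h
    exact ((hC_spec (lt_of_bit (n := 2048) (by decide +kernel) h)).resolve_right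
      fun e => e.1 h).2
  · intro h
    refine ((hC_spec (go.mem_fx.1 h).1).resolve_right fun e => ?_).1
    have := e.2 {0} fun x hx => by rw [(go.mem_fx.1 h).2 x hx]; simp
    simp at this

theorem card_fx_coE : (go.fx co.E).card = 16 := by
  rw [← bs_hC, ← (beq_iff _ _).1 (of_cntF (k := Nat.beq 16) (n := 64) (x := hC)
    (by decide +kernel))]

theorem listI {X : Subgroup M24} (hX : X ≤ Th) (h2 : ∀ x ∈ X, x * x = 1) (h1 : X ≠ ⊥) {τ : M24}
    (hτ : τ ∈ Th) (hτ2 : τ * τ = 1) (hE : τ ∉ go.E) {t : ℕ} (ht : t < 2048) (hW : go.inW t)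
    (hC : ∀ a ∈ go.fx X, go.act (cd τ) a = a) (J : Finset ℕ)
    (hJ : ∀ a, a ∈ J ↔ a ∈ go.fx X ∧ ∃ b < 2048, go.act (cd τ) b ^^^ b = a)
    (hJ' : ∀ a, a ∈ J ↔ ∃ x ∈ X, go.act (cd x) t ^^^ t = a)
    (hc : Nat.card X * (go.fx X).card = (go.fx (zpowers τ)).card * J.card) : X = trY := by
  by_contra hY
  obtain ⟨i, hi, rfl⟩ := exists_iv hτ (fun e => hE (e ▸ one_mem _)) hτ2
  have e1 : ¬ eM.testBit i = true := fun e => hE (mem_of_eM hi e)
  have e2 : ∀ C, bs C = go.fx X → sub C (dig 2048 (onz 2048) go.fms i) = true := fun C e =>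
    sub_iff.2 fun a ha => by
      have := e ▸ mem_bs.2 ha
      exact (go.testBit_fms hi a).2 ⟨(go.mem_fx.1 this).1, by simpa only [cd_iv hi] using hC a this⟩
  have e3 : ∀ C, bs C = go.fx X → bs (Nat.land C (dig 2048 (onz 2048) ims i)) = J := fun C e => by
    ext a
    rw [mem_bs, Nat.land_eq, Nat.testBit_and, Bool.and_eq_true, testBit_ims hi, hJ, ← e, mem_bs]
  rw [(nF_spec hi).1] at hc
  obtain ⟨C, p, h3, hp, -, rfl | ⟨-, h4 | h4⟩⟩ := of_chkG hX h2 h1 hY
  · have h := hC_aux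
    simp only [force_eq, and'_eq_true] at h
    have h5 := of_allF h.2 ((inW_go ht).1 hW)
    have e4 : bs (txM hcs 64 id t) = J := by
      ext a
      rw [mem_bs, testBit_txM (f := id) (fun _ h => h) ht, hJ']
      constructor
      · rintro ⟨b, hb, rfl⟩
        obtain ⟨x, hx, e⟩ := act_eT hb
        exact ⟨x, hx, by rw [e, id]⟩
      · rintro ⟨x, hx, rfl⟩
        obtain ⟨b, hb, e⟩ := mem_coE.1 hx
        exact ⟨b, hb, by rw [← e, id]⟩
    rw [fs_eq] at h5
    have h6 := (allB_iff _ _).1 (of_cntF h5) i hi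
    rw [card_E_co, card_fx_coE] at hc
    simp only [or'_eq_true, not'_eq_true, tb_eq, beq_iff, e1, e2 _ bs_hC, e4, Nat.mul_eq, ← hc,
      not_true, false_or, Bool.false_eq_true] at h6
    refine h6 (Nat.eq_of_testBit_eq fun a => ?_)
    rw [Bool.eq_iff_iff, ← mem_bs, ← mem_bs, e4, e3 _ bs_hC]
  · have : 0 < J.card := Finset.card_pos.2 ⟨_, (hJ' _).2 ⟨1, one_mem _, rfl⟩⟩
    have h5 : 64 ≤ nF i := by rw [nF, ite'_eq]; split_ifs <;> norm_num
    rw [hp, hc] at h4
    nlinarith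
  · have h5 := (allB_iff _ _).1 h4 i hi
    simp only [or'_eq_true, not'_eq_true, tb_eq, e1, e2 _ h3, fs_eq, not_true, false_or,
      Bool.false_eq_true] at h5
    have h6 := of_cntF h5
    rw [not'_eq_true, beq_iff, e3 _ h3] at h6
    exact h6 (hp.trans hc)

theorem listII {X : Subgroup M24} (hX : X ≤ Th) (h2 : ∀ x ∈ X, x * x = 1) (h1 : X ≠ ⊥) {τ : M24}
    (hτ : τ ∈ Th) (hτ2 : τ * τ = 1) (hE : τ ∉ go.E) (U : Finset ℕ) (hU : U ⊆ go.fx X)
    (hx : ∀ d ∈ U, ∀ e ∈ U, d ^^^ e ∈ U) (hz : go.z0 ∈ U) (hc : (go.fx X).card = 2 * U.card)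
    (hf : ∀ d ∈ U, go.act (cd τ) d = d)
    (hi : ∀ b < 2048, go.act (cd τ) b ^^^ b ∈ U → go.act (cd τ) b = b)
    (hn : Nat.card X * U.card = (go.fx (zpowers τ)).card) : X = trY := by
  by_contra hY
  obtain ⟨i, hi', rfl⟩ := exists_iv hτ (fun e => hE (e ▸ one_mem _)) hτ2
  obtain ⟨C, p, h3, hp, h4, -⟩ := of_chkG hX h2 h1 hY
  have h5 := of_allF h4 (((nF_spec hi').2.resolve_left hE).resolve_right fun ⟨b, hb, e⟩ =>
    go.z0_ne (by rw [← e, hi b hb (e ▸ hz), Nat.xor_self]))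
  rw [or'_eq_true, not'_eq_true, beq_iff, fs_eq] at h5
  have h6 := of_cntF (h5.resolve_left (not_not.2 (by
    rw [hp, hc, ← (nF_spec hi').1, ← hn, Nat.mul_eq]; ring)))
  rw [fs_eq] at h6
  have h7 := of_cntF h6
  rw [blt_iff] at h7
  have m2 : ∀ a, a ∈ bs (Nat.land C (dig 2048 (onz 2048) go.fms i)) ↔
      a ∈ go.fx X ∧ go.act (cd (mc (iv i))) a = a := fun a => by
    rw [mem_bs, Nat.land_eq, Nat.testBit_and, Bool.and_eq_true, go.testBit_fms hi', ← mem_bs, h3,
      cd_iv hi']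
    exact and_congr_right fun h => and_iff_right (go.mem_fx.1 h).1
  have m3 : ∀ a, a ∈ bs (Nat.land (Nat.land C (dig 2048 (onz 2048) go.fms i))
      (dig 2048 (onz 2048) ims i)) → (a ∈ go.fx X ∧ go.act (cd (mc (iv i))) a = a) ∧
        ∃ b < 2048, go.act (cd (mc (iv i))) b ^^^ b = a := fun a h => by
    rwa [mem_bs, Nat.land_eq, Nat.testBit_and, Bool.and_eq_true, testBit_ims hi', ← mem_bs,
      m2] at h
  generalize bs (Nat.land (Nat.land C (dig 2048 (onz 2048) go.fms i))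
    (dig 2048 (onz 2048) ims i)) = S3 at h7 m3
  generalize bs (Nat.land C (dig 2048 (onz 2048) go.fms i)) = S2 at h7 m2
  have h8 : (U ×ˢ S3).card ≤ S2.card := by
    refine Finset.card_le_card_of_injOn (fun q => q.1 ^^^ q.2) (fun q hq => ?_) fun q hq q' hq' e => ?_
    · obtain ⟨a, b⟩ := Finset.mem_product.1 hq
      have a1 := go.mem_fx.1 (hU a)
      have b1 := go.mem_fx.1 (m3 _ b).1.1
      exact (m2 _).2 ⟨go.mem_fx.2 ⟨xor_lt a1.1 b1.1, fun x hx => by
        rw [go.act_xor x a1.1 b1.1, a1.2 x hx, b1.2 x hx]⟩, by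
        rw [go.act_xor _ a1.1 b1.1, hf _ a, (m3 _ b).1.2]⟩
    · obtain ⟨a, b⟩ := Finset.mem_product.1 hq
      obtain ⟨a', b'⟩ := Finset.mem_product.1 hq'
      obtain ⟨c, hc, e1⟩ := (m3 _ b).2
      obtain ⟨c', hc', e1'⟩ := (m3 _ b').2
      have e2 : q.1 ^^^ q'.1 = q.2 ^^^ q'.2 := by
        have : q.1 = (q'.1 ^^^ q'.2) ^^^ q.2 := by
          rw [← show q.1 ^^^ q.2 = q'.1 ^^^ q'.2 from e]; simp
        rw [this, Nat.xor_comm q'.1, Nat.xor_comm _ q.2, Nat.xor_assoc, Nat.xor_assoc]; simp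
      have e3 := (go.col (mc (iv i))).xor c hc c' hc'
      simp only [e1, e1'] at e3
      have e4 := hi _ (xor_lt hc hc') (by rw [e3, ← e2]; exact hx _ a _ a')
      rw [e4, Nat.xor_self] at e3
      exact Prod.ext (xor_eq_zero'.1 (e2.trans e3.symm)) (xor_eq_zero'.1 e3.symm)
  rw [Finset.card_product] at h8
  rw [hc, Nat.mul_eq, Nat.mul_eq, mul_assoc] at h7
  omega

theorem six {X : Subgroup M24} (hX : X ≤ Th) (h2 : ∀ x ∈ X, x * x = 1) (hc : Nat.card X = 64)
    (U A : Finset ℕ) (hU : U.card ≤ 4) (hA : 16 < A.card)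
    (h : ∀ a ∈ A, a < 2048 ∧ ∀ x ∈ X, go.act (cd x) a ^^^ a ∈ U) : X = trY := by
  by_contra hY
  obtain ⟨C, p, -, -, -, rfl | h3⟩ := of_chkG hX h2 (fun e => by simp [e] at hc) hY
  · rw [← card_fx_coE] at hA
    refine absurd (Finset.card_le_card fun a ha => ?_) (not_le.2 hA)
    exact ((hC_spec (h a ha).1).resolve_right fun e => absurd (e.2 U (h a ha).2) (by omega)).2
  · exact h3.1 hc

end Cfsg.Agent.R24
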