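import Mathlib
import Cfsg.Agent.Spor.M24Idx2
import Cfsg.Agent.Spor.M24Code
import Cfsg.Agent.Spor.M24Class

/-!
# The two 11-dimensional modules of `M24` and the local situation `2^11 . M24`

`Md` is a coordinate description of a module: vectors are numbers `a < 2048` (sum = xor), and
`D.act (cd g) a` is the image of `a` under `g : M24`.  `go` is the Golay code modulo the all-one
word, `co` the even half of the cocode.  `St G D` is a subgroup `V` of `G` with
`N(V)/V ≅ M24` acting on `V` as on `D`.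
-/

set_option autoImplicit false

namespace Cfsg.Agent.R24

open Cfsg Cfsg.Agent.Comp Cfsg.Agent.Spor Cfsg.Agent.Spor.M24C Subgroup
open scoped Pointwise commutatorElement

/-- The code of an element of `M24`. -/
noncomputable abbrev cd (g : M24) : ℕ := code (g : Equiv.Perm GolayPt)

theorem cd_mul (g h : M24) : cd (g * h) = mulC (cd g) (cd h) := code_mul _ _
theorem cd_inv (g : M24) : cd g⁻¹ = invC (cd g) := code_inv _
theorem cd_conj (g h : M24) : cd (g * h * g⁻¹) = conjC (cd g) (cd h) := code_conj _ _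
theorem cd_one : cd 1 = oneC := code_one
theorem cd_inj {g h : M24} (e : cd g = cd h) : g = h := Subtype.ext (code_injective e)
theorem cd_mc {c : ℕ} (h : okM c = true) : cd (mc c) = c := code_mc h
theorem mc_cd (g : M24) : mc (cd g) = g := mc_code g

theorem img_mul (g h : M24) (m : ℕ) : imgC (cd (g * h)) m = imgC (cd g) (imgC (cd h) m) := by
  apply setOf'_inj (imgC_lt _ _) (imgC_lt _ _)
  rw [← smul_setOf'_M, ← smul_setOf'_M, ← smul_setOf'_M, mul_smul]

theorem img_one {m : ℕ} (h : m < 2 ^ 24) : imgC (cd 1) m = m := by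
  apply setOf'_inj (imgC_lt _ _) h
  rw [← smul_setOf'_M, one_smul]

theorem img_xor (g : M24) (m m' : ℕ) :
    imgC (cd g) (m ^^^ m') = imgC (cd g) m ^^^ imgC (cd g) m' := by
  apply setOf'_inj (imgC_lt _ _) (Nat.xor_lt_two_pow (imgC_lt _ _) (imgC_lt _ _))
  rw [setOf'_xor, ← smul_setOf'_M, ← smul_setOf'_M, ← smul_setOf'_M, setOf'_xor,
    smul_symmDiff_M]

/-- Coordinates on an 11-dimensional section of the permutation module. -/
structure Md where
  /-- admissible masks -/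
  dom : ℕ → Prop
  /-- a mask representing a vector -/
  vec : ℕ → ℕ
  /-- the vector of a mask -/
  crd : ℕ → ℕ
  /-- the vector fixed by the Sylow subgroup `Th` -/
  z0 : ℕ
  /-- the stabiliser of `z0` -/
  S0 : Subgroup M24
  /-- the largest normal 2-subgroup of `S0` -/
  E : Subgroup M24
  dom_vec : ∀ a < 2048, dom (vec a)
  dom_lt : ∀ m, dom m → m < 2 ^ 24
  dom_xor : ∀ m m', dom m → dom m' → dom (m ^^^ m')
  dom_img : ∀ (g : M24) m, dom m → dom (imgC (cd g) m)
  crd_lt : ∀ m, crd m < 2048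
  crd_vec : ∀ a < 2048, crd (vec a) = a
  crd_xor : ∀ m m', dom m → dom m' → crd (m ^^^ m') = crd m ^^^ crd m'
  crd_img : ∀ (g : M24) m, dom m → crd m = 0 → crd (imgC (cd g) m) = 0
  z0_lt : z0 < 2048
  z0_ne : z0 ≠ 0
  mem_S0 : ∀ g : M24, g ∈ S0 ↔ crd (imgC (cd g) (vec z0)) = z0

theorem xor_lt {a b : ℕ} (ha : a < 2048) (hb : b < 2048) : a ^^^ b < 2048 :=
  Nat.xor_lt_two_pow (n := 11) ha hb

theorem xor_eq_zero' {a b : ℕ} : a ^^^ b = 0 ↔ a = b := Nat.xor_eq_zero_iff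

namespace Md
variable (D : Md)

/-- The action on coordinates. -/
noncomputable def act (c a : ℕ) : ℕ := force (D.vec a) fun m => force (imgC c m) D.crd

theorem act_def (c a : ℕ) : D.act c a = D.crd (imgC c (D.vec a)) := by simp [act]

theorem act_lt (c a : ℕ) : D.act c a < 2048 := by rw [act_def]; exact D.crd_lt _

theorem crd_img_congr (g : M24) {m m' : ℕ} (h : D.dom m) (h' : D.dom m')
    (e : D.crd m = D.crd m') : D.crd (imgC (cd g) m) = D.crd (imgC (cd g) m') := by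
  have := D.crd_img g _ (D.dom_xor _ _ h h') (by rw [D.crd_xor _ _ h h', e, Nat.xor_self])
  rwa [img_xor, D.crd_xor _ _ (D.dom_img g _ h) (D.dom_img g _ h'), xor_eq_zero'] at this

theorem act_crd (g : M24) {m : ℕ} (h : D.dom m) :
    D.act (cd g) (D.crd m) = D.crd (imgC (cd g) m) := by
  rw [act_def]
  exact D.crd_img_congr g (D.dom_vec _ (D.crd_lt _)) h (D.crd_vec _ (D.crd_lt _))

theorem act_mul (g h : M24) {a : ℕ} (ha : a < 2048) :
    D.act (cd (g * h)) a = D.act (cd g) (D.act (cd h) a) := by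
  rw [D.act_def (cd h), D.act_crd g (D.dom_img h _ (D.dom_vec a ha)), act_def, img_mul]

theorem act_one {a : ℕ} (ha : a < 2048) : D.act (cd 1) a = a := by
  rw [act_def, img_one (D.dom_lt _ (D.dom_vec a ha)), D.crd_vec a ha]

theorem act_xor (g : M24) {a b : ℕ} (ha : a < 2048) (hb : b < 2048) :
    D.act (cd g) (a ^^^ b) = D.act (cd g) a ^^^ D.act (cd g) b := by
  have h1 := D.dom_vec a ha
  have h2 := D.dom_vec b hb
  have : a ^^^ b = D.crd (D.vec a ^^^ D.vec b) := by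
    rw [D.crd_xor _ _ h1 h2, D.crd_vec a ha, D.crd_vec b hb]
  rw [this, D.act_crd g (D.dom_xor _ _ h1 h2), img_xor,
    D.crd_xor _ _ (D.dom_img g _ h1) (D.dom_img g _ h2), act_def, act_def]

theorem act_zero (g : M24) : D.act (cd g) 0 = 0 := by
  have := D.act_xor g (a := 0) (b := 0) (by norm_num) (by norm_num)
  rwa [Nat.xor_self, Nat.xor_self] at this

theorem act_inv_act (g : M24) {a : ℕ} (ha : a < 2048) :
    D.act (cd g⁻¹) (D.act (cd g) a) = a := by
  rw [← D.act_mul _ _ ha, inv_mul_cancel, D.act_one ha]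

theorem act_act_inv (g : M24) {a : ℕ} (ha : a < 2048) :
    D.act (cd g) (D.act (cd g⁻¹) a) = a := by
  rw [← D.act_mul _ _ ha, mul_inv_cancel, D.act_one ha]

theorem act_inj (g : M24) {a b : ℕ} (ha : a < 2048) (hb : b < 2048)
    (e : D.act (cd g) a = D.act (cd g) b) : a = b := by
  rw [← D.act_inv_act g ha, e, D.act_inv_act g hb]

theorem mem_S0' (g : M24) : g ∈ D.S0 ↔ D.act (cd g) D.z0 = D.z0 := by
  rw [act_def]; exact D.mem_S0 g

/-- The stabiliser of a vector. -/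
def stab (a : ℕ) : Subgroup M24 where
  carrier := {g | a < 2048 → D.act (cd g) a = a}
  one_mem' := fun ha => D.act_one ha
  mul_mem' := fun {g h} hg hh ha => by rw [D.act_mul _ _ ha, hh ha, hg ha]
  inv_mem' := fun {g} hg ha => by
    conv_lhs => rw [← hg ha]
    exact D.act_inv_act g ha

theorem mem_stab {a : ℕ} (ha : a < 2048) {g : M24} : g ∈ D.stab a ↔ D.act (cd g) a = a :=
  ⟨fun h => h ha, fun h _ => h⟩

end Md

/-! ### The Golay module -/

/-- Coordinates of a code word modulo the all-one word. -/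
noncomputable def gcrd (m : ℕ) : ℕ :=
  force (Nat.land m 4095) fun x => ite' (Nat.blt x 2048) x (Nat.xor x 4095)

theorem gcrd_aux : allB 4096 (fun x => and' (Nat.blt (gcrd x) 2048)
    (and' (or' (Nat.beq (gcrd x) x) (Nat.beq (gcrd x) (Nat.xor x 4095)))
      (and' (or' (not' (Nat.blt x 2048)) (Nat.beq (gcrd x) x))
        (Nat.beq (gcrd (Nat.xor x 4095)) (gcrd x))))) = true := by decide +kernel

theorem gcrd_land (m : ℕ) : gcrd m = gcrd (m &&& 4095) := by
  simp only [gcrd, force_eq]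
  have : Nat.land (m &&& 4095) 4095 = Nat.land m 4095 := by
    show (m &&& 4095) &&& 4095 = m &&& 4095
    rw [Nat.and_assoc, Nat.and_self]
  rw [this]

theorem gcrd_spec {x : ℕ} (h : x < 4096) : gcrd x < 2048 ∧ (gcrd x = x ∨ gcrd x = x ^^^ 4095) ∧
    (x < 2048 → gcrd x = x) ∧ gcrd (x ^^^ 4095) = gcrd x := by
  have := (allB_iff _ _).1 gcrd_aux x h
  simp only [and'_eq_true, or'_eq_true, not'_eq_true, beq_iff, blt_iff] at this
  exact ⟨this.1, this.2.1, fun h => this.2.2.1.resolve_left (not_not.2 h), this.2.2.2⟩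

theorem gcrd_lt (m : ℕ) : gcrd m < 2048 := by
  rw [gcrd_land]; exact (gcrd_spec (land_4095_lt m)).1

theorem gcrd_xor (m m' : ℕ) : gcrd (m ^^^ m') = gcrd m ^^^ gcrd m' := by
  rw [gcrd_land, gcrd_land m, gcrd_land m', Nat.and_xor_distrib_right]
  generalize hx : m &&& 4095 = x
  generalize hy : m' &&& 4095 = y
  have h1 : x < 4096 := hx ▸ land_4095_lt m
  have h2 : y < 4096 := hy ▸ land_4095_lt m'
  have h3 : gcrd x ^^^ gcrd y < 2048 := xor_lt (gcrd_spec h1).1 (gcrd_spec h2).1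
  have h4 := gcrd_spec (x := gcrd x ^^^ gcrd y) (by omega)
  have h5 := gcrd_spec (Nat.xor_lt_two_pow (n := 12) h1 h2)
  rw [← h4.2.2.1 h3]
  rcases (gcrd_spec h1).2.1 with e | e <;> rcases (gcrd_spec h2).2.1 with e' | e' <;> rw [e, e']
  · rw [← Nat.xor_assoc, h5.2.2.2]
  · rw [Nat.xor_assoc, Nat.xor_comm 4095, ← Nat.xor_assoc, h5.2.2.2]
  · rw [Nat.xor_assoc, Nat.xor_comm y, ← Nat.xor_assoc 4095, Nat.xor_self, Nat.zero_xor]

theorem enc_zero : enc 0 = 0 := by decide +kernel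
theorem enc_all : enc 4095 = 16777215 := by decide +kernel

theorem gcrd_eq_zero {m : ℕ} (h : isCW m = true) : gcrd m = 0 ↔ m = 0 ∨ m = 16777215 := by
  constructor
  · intro e
    rw [gcrd_land] at e
    rw [← (isCW_iff m).1 h]
    rcases (gcrd_spec (land_4095_lt m)).2.1 with e' | e'
    · left; rw [← e', e, enc_zero]
    · right; rw [xor_eq_zero'.1 (e'.symm.trans e), enc_all]
  · rintro (rfl | rfl) <;> decide +kernel

theorem setOf'_all : setOf' 16777215 = Finset.univ := by decide +kernel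
theorem setOf'_zero' : setOf' 0 = ∅ := by ext p; simp

theorem img_all (g : M24) : imgC (cd g) 16777215 = 16777215 := by
  apply setOf'_inj (imgC_lt _ _) (by norm_num)
  rw [← smul_setOf'_M, setOf'_all, Finset.smul_finset_univ]

theorem img_zero (g : M24) : imgC (cd g) 0 = 0 := by
  have := img_xor g 0 0
  rwa [Nat.xor_self, Nat.xor_self] at this

theorem isCW_img (g : M24) {m : ℕ} (h : isCW m = true) : isCW (imgC (cd g) m) = true := by
  rw [← setOf'_mem_codeSets_iff (imgC_lt _ _), ← smul_setOf'_M, smul_mem_codeSets_iff]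
  exact setOf'_mem_codeSets h

theorem pop_img (g : M24) (m : ℕ) : pop 24 (imgC (cd g) m) = pop 24 m := by
  rw [← card_setOf', ← card_setOf', ← smul_setOf'_M, Finset.card_smul_finset]

/-- The Golay code modulo the all-one word; `z0 = 1183` is the octad `5279`. -/
noncomputable def go : Md where
  dom m := isCW m = true
  vec := enc
  crd := gcrd
  z0 := 1183
  S0 := MulAction.stabilizer M24 (setOf' 5279)
  E := fixS (setOf' 5279)
  dom_vec a ha := isCW_enc (by omega)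
  dom_lt _ := isCW_lt
  dom_xor _ _ := isCW_xor
  dom_img g _ := isCW_img g
  crd_lt := gcrd_lt
  crd_vec a ha := by
    rw [gcrd_land, (enc_spec (a := a) (by omega)).2.1]; exact (gcrd_spec (by omega)).2.2.1 ha
  crd_xor m m' _ _ := gcrd_xor m m'
  crd_img g m h e := by
    rw [gcrd_eq_zero (isCW_img g h)]
    rcases (gcrd_eq_zero h).1 e with rfl | rfl
    · exact Or.inl (img_zero g)
    · exact Or.inr (img_all g)
  z0_lt := by norm_num
  z0_ne := by norm_num
  mem_S0 g := by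
    have e1 : enc 1183 = 5279 := by decide +kernel
    have e2 : gcrd 5279 = 1183 := by decide +kernel
    have h0 : isCW 5279 = true := by decide +kernel
    rw [e1, MulAction.mem_stabilizer_iff, smul_setOf'_M]
    constructor
    · intro h; rw [setOf'_inj (imgC_lt _ _) (by norm_num) h, e2]
    · intro h
      rw [← e2, ← xor_eq_zero', ← gcrd_xor, gcrd_eq_zero (isCW_xor (isCW_img g h0) h0)] at h
      rcases h with h | h
      · rw [xor_eq_zero'.1 h]
      · have h1 := pop_img g 5279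
        have h2 : imgC (cd g) 5279 = 16777215 ^^^ 5279 := by
          rw [← h, Nat.xor_assoc, Nat.xor_self, Nat.xor_zero]
        rw [h2] at h1
        exact absurd h1 (by decide +kernel)

/-! ### The even cocode -/

/-- A mask representing a vector of the even cocode. -/
noncomputable def cvec (a : ℕ) : ℕ :=
  Nat.shiftLeft (Nat.lor a (Nat.shiftLeft (Nat.land (pop 11 a) 1) 11)) 12

/-- Reduction modulo the code. -/
noncomputable def red (m : ℕ) : ℕ := Nat.shiftRight (Nat.xor m (enc (Nat.land m 4095))) 12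

/-- Coordinates of an even set modulo the code. -/
noncomputable def ccrd (m : ℕ) : ℕ := Nat.land (red m) 2047

theorem red_xor (m m' : ℕ) : red (m ^^^ m') = red m ^^^ red m' := by
  show ((m ^^^ m') ^^^ enc ((m ^^^ m') &&& 4095)) >>> 12 =
    ((m ^^^ enc (m &&& 4095)) >>> 12) ^^^ ((m' ^^^ enc (m' &&& 4095)) >>> 12)
  rw [Nat.and_xor_distrib_right, enc_xor (land_4095_lt _) (land_4095_lt _),
    ← Nat.shiftRight_xor_distrib]
  congr 1
  simp only [Nat.xor_assoc]
  rw [← Nat.xor_assoc m', Nat.xor_comm m', Nat.xor_assoc]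

theorem ccrd_xor (m m' : ℕ) : ccrd (m ^^^ m') = ccrd m ^^^ ccrd m' := by
  show red (m ^^^ m') &&& 2047 = (red m &&& 2047) ^^^ (red m' &&& 2047)
  rw [red_xor, Nat.and_xor_distrib_right]

theorem ccrd_lt (m : ℕ) : ccrd m < 2048 := lt_of_le_of_lt Nat.and_le_right (by norm_num)

theorem cvec_aux : allB 2048 (fun a => force (cvec a) fun m => and' (Nat.blt m 16777216)
    (and' (Nat.beq (Nat.mod (pop 24 m) 2) 0) (Nat.beq (ccrd m) a))) = true := by decide +kernel

theorem cvec_spec {a : ℕ} (h : a < 2048) :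
    cvec a < 2 ^ 24 ∧ pop 24 (cvec a) % 2 = 0 ∧ ccrd (cvec a) = a := by
  have := (allB_iff _ _).1 cvec_aux a h
  simp only [force_eq, and'_eq_true, beq_iff, blt_iff] at this
  exact this

theorem pop_xor_mod (m m' : ℕ) : pop 24 (m ^^^ m') % 2 = (pop 24 m + pop 24 m') % 2 := by
  rw [← card_setOf', ← card_setOf', ← card_setOf', setOf'_xor, symmDiff_def, Finset.sup_eq_union,
    Finset.card_union_of_disjoint disjoint_sdiff_sdiff]
  have h1 := Finset.card_sdiff_add_card_inter (setOf' m) (setOf' m')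
  have h2 := Finset.card_sdiff_add_card_inter (setOf' m') (setOf' m)
  rw [Finset.inter_comm] at h2
  omega

theorem pop_enc_aux : allB 4096 (fun a => force (enc a) fun m =>
    and' (Nat.beq (Nat.mod (pop 24 m) 2) 0) (Nat.beq (red m) 0)) = true := by decide +kernel

theorem pop_red_of_isCW {m : ℕ} (h : isCW m = true) : pop 24 m % 2 = 0 ∧ red m = 0 := by
  obtain ⟨a, ha, rfl⟩ := (isCW_iff_exists m).1 h
  have := (allB_iff _ _).1 pop_enc_aux a ha
  simp only [force_eq, and'_eq_true, beq_iff] at this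
  exact this

theorem ccrd_eq_zero {m : ℕ} (h : m < 2 ^ 24) (h2 : pop 24 m % 2 = 0) :
    ccrd m = 0 ↔ isCW m = true := by
  constructor
  · intro e
    have h3 := enc_spec (land_4095_lt m)
    set x := m ^^^ enc (m &&& 4095) with hx
    have h4 : x < 2 ^ 24 := Nat.xor_lt_two_pow h h3.2.2
    have h5 : x &&& 4095 = 0 := by rw [hx, Nat.and_xor_distrib_right, h3.2.1, Nat.xor_self]
    have h6 : (x >>> 12) &&& 2047 = 0 := e
    have h7 : pop 24 x % 2 = 0 := by
      rw [hx, pop_xor_mod, Nat.add_mod, h2, (pop_red_of_isCW (isCW_enc (land_4095_lt m))).1]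
    rw [show (4095 : ℕ) = 2 ^ 12 - 1 from rfl, Nat.and_two_pow_sub_one_eq_mod] at h5
    rw [show (2047 : ℕ) = 2 ^ 11 - 1 from rfl, Nat.and_two_pow_sub_one_eq_mod,
      Nat.shiftRight_eq_div_pow] at h6
    have h8 : x = 0 ∨ x = 8388608 := by omega
    rcases h8 with h8 | h8
    · rw [isCW_iff]; exact (xor_eq_zero'.1 h8).symm
    · rw [h8] at h7; exact absurd h7 (by decide +kernel)
  · intro e
    show red m &&& 2047 = 0
    rw [(pop_red_of_isCW e).2, Nat.zero_and]

/-- Codes of a basis of the largest normal 2-subgroup of the sextet group. -/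
def h6 : List ℕ := [720981692062171673584743151055243296, 220121809236599362611927091125488641,
  220213109803259289183002082616117280, 216031257977568192633985706410183681,
  216227626219662118351051565874283587, 222521510211855271950402112419037282]

theorem sx0_tetrad : setOf' 3416064 ∈ famOf 6 sx0 :=
  mem_famOf.2 ⟨3, by norm_num, by decide +kernel⟩

theorem tetrad_aux : allB 4096 (fun a => force (Nat.xor (enc a) 3416064) fun m =>
    or' (not' (Nat.beq (pop 24 m) 4)) (anyLT 6 fun j => Nat.beq (mem24 sx0 j) m)) = true := by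
  decide +kernel

/-- The even cocode; `z0 = ccrd 15` is the sextet `sx0`. -/
noncomputable def co : Md where
  dom m := m < 2 ^ 24 ∧ pop 24 m % 2 = 0
  vec := cvec
  crd := ccrd
  z0 := 834
  S0 := MulAction.stabilizer M24 (famOf 6 sx0)
  E := gen h6
  dom_vec a ha := ⟨(cvec_spec ha).1, (cvec_spec ha).2.1⟩
  dom_lt _ h := h.1
  dom_xor m m' h h' := ⟨Nat.xor_lt_two_pow h.1 h'.1, by rw [pop_xor_mod]; omega⟩
  dom_img g m h := ⟨imgC_lt _ _, by rw [pop_img]; exact h.2⟩
  crd_lt := ccrd_lt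
  crd_vec a ha := (cvec_spec ha).2.2
  crd_xor m m' _ _ := ccrd_xor m m'
  crd_img g m h e := by
    rw [ccrd_eq_zero (imgC_lt _ _) (by rw [pop_img]; exact h.2)]
    exact isCW_img g ((ccrd_eq_zero h.1 h.2).1 e)
  z0_lt := by norm_num
  z0_ne := by norm_num
  mem_S0 g := by
    have e1 : cvec 834 = 3416064 := by decide +kernel
    have e2 : ccrd 3416064 = 834 := by decide +kernel
    have e3 : pop 24 3416064 = 4 := by decide +kernel
    rw [e1, MulAction.mem_stabilizer_iff]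
    constructor
    · intro h
      have h1 : g • setOf' 3416064 ∈ famOf 6 sx0 := by
        rw [← h]; exact Finset.smul_mem_smul_finset sx0_tetrad
      obtain ⟨j, hj, e⟩ := mem_famOf.1 h1
      have h2 : ∀ j < 6, mem24 sx0 j < 2 ^ 24 ∧ ccrd (mem24 sx0 j) = 834 := by decide +kernel
      rw [smul_setOf'_M] at e
      rw [← setOf'_inj (h2 j hj).1 (imgC_lt _ _) e, (h2 j hj).2]
    · intro h
      rw [← e2, ← xor_eq_zero', ← ccrd_xor, ccrd_eq_zero
        (Nat.xor_lt_two_pow (imgC_lt _ _) (by norm_num)) (by rw [pop_xor_mod, pop_img, e3])] at h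
      obtain ⟨a, ha, e⟩ := (isCW_iff_exists _).1 h
      have h1 := (allB_iff _ _).1 tetrad_aux a ha
      have h2 : Nat.xor (enc a) 3416064 = imgC (cd g) 3416064 := by
        show enc a ^^^ 3416064 = _
        rw [e, Nat.xor_assoc, Nat.xor_self, Nat.xor_zero]
      simp only [force_eq, or'_eq_true, not'_eq_true, beq_iff, anyLT_iff, h2, pop_img, e3] at h1
      obtain ⟨j, hj, e'⟩ := h1.resolve_left (by simp)
      refine smul_sextet_of_mem sx0_mem sx0_tetrad (mem_famOf.2 ⟨j, hj, ?_⟩)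
      rw [e', smul_setOf'_M]

theorem card_S0_go : Nat.card go.S0 = 322560 := card_stabilizer_octad o0_mem
theorem card_E_go : Nat.card go.E = 16 := card_fixS_octad o0_mem
theorem card_S0_co : Nat.card co.S0 = 138240 := card_stabilizer_sextet sx0_mem

/-! ### The local situation -/

/-- `V` is a self-centralising subgroup `2^11` of `G` on which `N(V)/V ≅ M24` acts as on `D`. -/
structure St (G : Type*) [Group G] (D : Md) where
  /-- the subgroup `2^11` -/
  V : Subgroup G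
  /-- coordinates on `V` -/
  f : ℕ → G
  /-- the map onto `M24` -/
  π : normalizer (V : Set G) →* M24
  surj : Function.Surjective π
  ker : ∀ m, π m = 1 ↔ (m : G) ∈ V
  mem : ∀ g, g ∈ V ↔ ∃ a < 2048, f a = g
  inj : ∀ a < 2048, ∀ b < 2048, f a = f b → a = b
  mul : ∀ a < 2048, ∀ b < 2048, f (a ^^^ b) = f a * f b
  conj : ∀ m : normalizer (V : Set G), ∀ a < 2048,
    (m : G) * f a * (m : G)⁻¹ = f (D.act (cd (π m)) a)
  cent : centralizer (V : Set G) ≤ V

namespace St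
variable {G : Type*} [Group G] {D : Md} (S : St G D)

/-- `M = N(V)`. -/
abbrev M : Subgroup G := normalizer (S.V : Set G)

open Classical in
/-- The map `M → M24` as a total function. -/
noncomputable def p (g : G) : M24 := if h : g ∈ S.M then S.π ⟨g, h⟩ else 1

theorem p_eq {g : G} (h : g ∈ S.M) : S.p g = S.π ⟨g, h⟩ := dif_pos h
theorem p_coe (m : S.M) : S.p m = S.π m := S.p_eq m.2

theorem p_mul {x y : G} (hx : x ∈ S.M) (hy : y ∈ S.M) : S.p (x * y) = S.p x * S.p y := by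
  rw [S.p_eq hx, S.p_eq hy, S.p_eq (mul_mem hx hy), ← map_mul]; rfl

theorem p_one : S.p 1 = 1 := by rw [S.p_eq (one_mem _)]; exact map_one S.π

theorem p_inv {x : G} (hx : x ∈ S.M) : S.p x⁻¹ = (S.p x)⁻¹ := by
  rw [S.p_eq hx, S.p_eq (inv_mem hx), ← map_inv]; rfl

theorem p_pow {x : G} (hx : x ∈ S.M) (n : ℕ) : S.p (x ^ n) = S.p x ^ n := by
  rw [S.p_eq hx, S.p_eq (pow_mem hx n), ← map_pow]; rfl

theorem p_conj {x y : G} (hx : x ∈ S.M) (hy : y ∈ S.M) :
    S.p (x * y * x⁻¹) = S.p x * S.p y * (S.p x)⁻¹ := by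
  rw [S.p_mul (mul_mem hx hy) (inv_mem hx), S.p_mul hx hy, S.p_inv hx]

theorem V_le_M : S.V ≤ S.M := le_normalizer

theorem p_eq_one {x : G} (hx : x ∈ S.M) : S.p x = 1 ↔ x ∈ S.V := by
  rw [S.p_eq hx]; exact S.ker _

theorem p_of_mem {x : G} (hx : x ∈ S.V) : S.p x = 1 := (S.p_eq_one (S.V_le_M hx)).2 hx

theorem exists_p (g : M24) : ∃ m ∈ S.M, S.p m = g := by
  obtain ⟨m, rfl⟩ := S.surj g
  exact ⟨m, m.2, S.p_coe m⟩

theorem p_eq_iff {x y : G} (hx : x ∈ S.M) (hy : y ∈ S.M) : S.p x = S.p y ↔ x * y⁻¹ ∈ S.V := by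
  rw [← S.p_eq_one (mul_mem hx (inv_mem hy)), S.p_mul hx (inv_mem hy), S.p_inv hy,
    mul_inv_eq_one]

theorem f_mem {a : ℕ} (ha : a < 2048) : S.f a ∈ S.V := (S.mem _).2 ⟨a, ha, rfl⟩

theorem exists_f {v : G} (hv : v ∈ S.V) : ∃ a < 2048, S.f a = v := (S.mem v).1 hv

theorem f_zero : S.f 0 = 1 := by
  have := S.mul 0 (by norm_num) 0 (by norm_num)
  rw [Nat.xor_self] at this
  exact mul_eq_left.1 this.symm

theorem f_eq_one {a : ℕ} (ha : a < 2048) : S.f a = 1 ↔ a = 0 :=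
  ⟨fun h => S.inj a ha 0 (by norm_num) (h.trans S.f_zero.symm), fun h => h ▸ S.f_zero⟩

theorem f_inj {a b : ℕ} (ha : a < 2048) (hb : b < 2048) : S.f a = S.f b ↔ a = b :=
  ⟨S.inj a ha b hb, fun h => h ▸ rfl⟩

theorem mul_self {v : G} (hv : v ∈ S.V) : v * v = 1 := by
  obtain ⟨a, ha, rfl⟩ := S.exists_f hv
  rw [← S.mul a ha a ha, Nat.xor_self, S.f_zero]

theorem inv_eq {v : G} (hv : v ∈ S.V) : v⁻¹ = v := inv_eq_of_mul_eq_one_right (S.mul_self hv)

theorem comm {v w : G} (hv : v ∈ S.V) (hw : w ∈ S.V) : v * w = w * v := by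
  obtain ⟨a, ha, rfl⟩ := S.exists_f hv
  obtain ⟨b, hb, rfl⟩ := S.exists_f hw
  rw [← S.mul a ha b hb, ← S.mul b hb a ha, Nat.xor_comm]

theorem conj_f {m : G} (hm : m ∈ S.M) {a : ℕ} (ha : a < 2048) :
    m * S.f a * m⁻¹ = S.f (D.act (cd (S.p m)) a) := by
  rw [S.p_eq hm]; exact S.conj ⟨m, hm⟩ a ha

theorem conj_mem {m v : G} (hm : m ∈ S.M) (hv : v ∈ S.V) : m * v * m⁻¹ ∈ S.V :=
  (mem_normalizer_iff.1 hm v).1 hv

/-- The commutator of `m ∈ M` with a vector. -/
theorem comm_f {m : G} (hm : m ∈ S.M) {a : ℕ} (ha : a < 2048) :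
    ⁅m, S.f a⁆ = S.f (D.act (cd (S.p m)) a ^^^ a) := by
  rw [commutatorElement_def, S.conj_f hm ha, S.mul _ (D.act_lt _ _) a ha, S.inv_eq (S.f_mem ha)]

theorem comm_f_iff {m : G} (hm : m ∈ S.M) {a : ℕ} (ha : a < 2048) :
    m * S.f a = S.f a * m ↔ D.act (cd (S.p m)) a = a := by
  rw [← S.f_inj (D.act_lt _ _) ha, ← S.conj_f hm ha, mul_inv_eq_iff_eq_mul]

theorem mem_of_comm {g : G} (h : ∀ v ∈ S.V, v * g = g * v) : g ∈ S.V :=
  S.cent (mem_centralizer_iff.2 h)

theorem card_V : Nat.card S.V = 2048 := by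
  have e : Fin 2048 ≃ S.V := Equiv.ofBijective (fun a => ⟨S.f a, S.f_mem a.2⟩)
    ⟨fun a b h => Fin.ext (S.inj _ a.2 _ b.2 (congrArg Subtype.val h)), fun v => by
      obtain ⟨a, ha, e⟩ := S.exists_f v.2
      exact ⟨⟨a, ha⟩, Subtype.ext e⟩⟩
  rw [← Nat.card_congr e, Nat.card_fin]

theorem isPGroup_V : IsPGroup 2 S.V := IsPGroup.of_card (n := 11) S.card_V

/-- The number of vectors in a subgroup of `V`. -/
theorem card_eq_filter {A : Subgroup G} (hA : A ≤ S.V) (P : ℕ → Prop) [DecidablePred P]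
    (h : ∀ a < 2048, S.f a ∈ A ↔ P a) :
    Nat.card A = ((Finset.range 2048).filter P).card := by
  rw [← Fintype.card_coe, ← Nat.card_eq_fintype_card]
  refine (Nat.card_congr (Equiv.ofBijective
    (fun a : {a // a ∈ (Finset.range 2048).filter P} => (⟨S.f a, (h _ (Finset.mem_range.1
      (Finset.mem_filter.1 a.2).1)).2 (Finset.mem_filter.1 a.2).2⟩ : A)) ⟨fun a b e => ?_,
      fun v => ?_⟩)).symm
  · exact Subtype.ext (S.inj _ (Finset.mem_range.1 (Finset.mem_filter.1 a.2).1) _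
      (Finset.mem_range.1 (Finset.mem_filter.1 b.2).1) (congrArg Subtype.val e))
  · obtain ⟨a, ha, e⟩ := S.exists_f (hA v.2)
    exact ⟨⟨a, Finset.mem_filter.2 ⟨Finset.mem_range.2 ha, (h a ha).1 (e ▸ v.2)⟩⟩, Subtype.ext e⟩

/-- The preimage in `M` of a subgroup of `M24`. -/
def pre (X : Subgroup M24) : Subgroup G := (X.comap S.π).map S.M.subtype

theorem mem_pre {X : Subgroup M24} {g : G} : g ∈ S.pre X ↔ g ∈ S.M ∧ S.p g ∈ X := by
  constructor
  · rintro ⟨m, hm, rfl⟩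
    exact ⟨m.2, by rw [coe_subtype, S.p_coe]; exact hm⟩
  · rintro ⟨h1, h2⟩
    exact ⟨⟨g, h1⟩, by rw [S.p_eq h1] at h2; exact h2, rfl⟩

theorem pre_le_M (X : Subgroup M24) : S.pre X ≤ S.M := fun _ h => (S.mem_pre.1 h).1

theorem V_le_pre (X : Subgroup M24) : S.V ≤ S.pre X := fun _ h =>
  S.mem_pre.2 ⟨S.V_le_M h, by rw [S.p_of_mem h]; exact one_mem _⟩

theorem pre_mono {X Y : Subgroup M24} (h : X ≤ Y) : S.pre X ≤ S.pre Y := fun _ hg =>
  S.mem_pre.2 ⟨(S.mem_pre.1 hg).1, h (S.mem_pre.1 hg).2⟩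

theorem exists_pre {X : Subgroup M24} {g : M24} (hg : g ∈ X) : ∃ m ∈ S.pre X, S.p m = g := by
  obtain ⟨m, hm, e⟩ := S.exists_p g
  exact ⟨m, S.mem_pre.2 ⟨hm, e ▸ hg⟩, e⟩

/-- The image in `M24` of (the intersection with `M` of) a subgroup. -/
def im (A : Subgroup G) : Subgroup M24 := (A.subgroupOf S.M).map S.π

theorem mem_im {A : Subgroup G} {g : M24} : g ∈ S.im A ↔ ∃ x ∈ A, x ∈ S.M ∧ S.p x = g := by
  constructor
  · rintro ⟨m, hm, rfl⟩
    exact ⟨m, hm, m.2, S.p_coe m⟩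
  · rintro ⟨x, hx, hm, rfl⟩
    exact ⟨⟨x, hm⟩, hx, (S.p_eq hm).symm⟩

theorem p_mem_im {A : Subgroup G} {x : G} (hx : x ∈ A) (hm : x ∈ S.M) : S.p x ∈ S.im A :=
  S.mem_im.2 ⟨x, hx, hm, rfl⟩

theorem im_pre (X : Subgroup M24) : S.im (S.pre X) = X := by
  ext g
  rw [mem_im]
  constructor
  · rintro ⟨x, hx, -, rfl⟩; exact (S.mem_pre.1 hx).2
  · intro hg
    obtain ⟨m, hm, e⟩ := S.exists_pre hg
    exact ⟨m, hm, S.pre_le_M X hm, e⟩

theorem card_eq_im {A : Subgroup G} (hA : A ≤ S.M) :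
    Nat.card A = Nat.card (S.im A) * Nat.card (A ⊓ S.V : Subgroup G) := by
  let φ : A →* M24 := S.π.comp (inclusion hA)
  have h1 : φ.range = S.im A := by
    ext g
    rw [mem_im]
    constructor
    · rintro ⟨x, rfl⟩; exact ⟨x, x.2, hA x.2, S.p_eq (hA x.2)⟩
    · rintro ⟨x, hx, hm, rfl⟩; exact ⟨⟨x, hx⟩, (S.p_eq hm).symm⟩
  have h2 : φ.ker = (A ⊓ S.V).subgroupOf A := by
    ext x
    rw [MonoidHom.mem_ker, mem_subgroupOf, mem_inf]
    exact (S.ker _).trans ⟨fun h => ⟨x.2, h⟩, fun h => h.2⟩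
  rw [← h1, ← Nat.card_congr (QuotientGroup.quotientKerEquivRange φ).toEquiv,
    ← Nat.card_congr (subgroupOfEquivOfLe (inf_le_left : A ⊓ S.V ≤ A)).toEquiv, ← h2]
  exact card_eq_card_quotient_mul_card_subgroup _

theorem card_pre (X : Subgroup M24) : Nat.card (S.pre X) = Nat.card X * 2048 := by
  rw [S.card_eq_im (S.pre_le_M X), S.im_pre, inf_eq_right.2 (S.V_le_pre X), S.card_V]

theorem pre_top : S.pre ⊤ = S.M := le_antisymm (S.pre_le_M _) fun _ h => S.mem_pre.2 ⟨h, trivial⟩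

theorem card_M : Nat.card S.M = 244823040 * 2048 := by
  rw [← S.pre_top, S.card_pre, card_top_M24]

/-- The 2-central involution. -/
def z : G := S.f D.z0

theorem z_mem : S.z ∈ S.V := S.f_mem D.z0_lt
theorem z_ne : S.z ≠ 1 := fun h => D.z0_ne ((S.f_eq_one D.z0_lt).1 h)
theorem z_sq : S.z * S.z = 1 := S.mul_self S.z_mem
theorem orderOf_z : orderOf S.z = 2 := orderOf_eq_prime (by rw [sq, S.z_sq]) S.z_ne

theorem mem_zpowers_z {x : G} : x ∈ zpowers S.z ↔ x = 1 ∨ x = S.z := by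
  constructor
  · rintro ⟨n, rfl⟩
    have h2 : S.z ^ (2 : ℤ) = 1 := by rw [zpow_two, S.z_sq]
    show S.z ^ n = 1 ∨ S.z ^ n = S.z
    rcases Int.even_or_odd' n with ⟨k, rfl | rfl⟩
    · left; rw [zpow_mul, h2, one_zpow]
    · right; rw [zpow_add, zpow_mul, h2, one_zpow, one_mul, zpow_one]
  · rintro (rfl | rfl)
    · exact one_mem _
    · exact mem_zpowers _

theorem f_mem_zpowers_z {a : ℕ} (ha : a < 2048) : S.f a ∈ zpowers S.z ↔ a = 0 ∨ a = D.z0 := by
  rw [mem_zpowers_z, S.f_eq_one ha, z, S.f_inj ha D.z0_lt]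

/-- `H = C(z)`. -/
abbrev H : Subgroup G := centralizer ({S.z} : Set G)

theorem mem_H {g : G} : g ∈ S.H ↔ g * S.z = S.z * g := by
  rw [mem_centralizer_singleton_iff]

/-- `H0 = C(z) ∩ M`. -/
def H0 : Subgroup G := S.pre D.S0

theorem mem_H0 {g : G} : g ∈ S.H0 ↔ g ∈ S.H ∧ g ∈ S.M := by
  rw [H0, mem_pre, mem_H, D.mem_S0', z]
  exact ⟨fun h => ⟨(S.comm_f_iff h.1 D.z0_lt).2 h.2, h.1⟩,
    fun h => ⟨h.2, (S.comm_f_iff h.2 D.z0_lt).1 h.1⟩⟩

theorem H0_eq : S.H0 = S.H ⊓ S.M := by ext g; rw [mem_H0, mem_inf]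

theorem V_le_H : S.V ≤ S.H := fun _ h => S.mem_H.2 (S.comm h S.z_mem)

/-- `P = O₂(H0)`. -/
def P : Subgroup G := S.pre D.E

/-- `W` is the set of vectors centralised modulo `z` by `P` (order `2^5` resp. `2^7`). -/
def W : Subgroup G where
  carrier := {v | v ∈ S.V ∧ ∀ x ∈ S.P, ⁅x, v⁆ ∈ zpowers S.z}
  one_mem' := ⟨one_mem _, fun x _ => by rw [commutatorElement_one_right]; exact one_mem _⟩
  mul_mem' := fun {v w} hv hw => ⟨mul_mem hv.1 hw.1, fun x hx => by
    have h1 : ⁅x, v * w⁆ = ⁅x, v⁆ * (v * ⁅x, w⁆ * v⁻¹) := by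
      simp only [commutatorElement_def]; group
    have h2 : v * ⁅x, w⁆ * v⁻¹ = ⁅x, w⁆ := by
      rw [S.comm hv.1 (zpowers_le.2 S.z_mem (hw.2 x hx)), mul_inv_cancel_right]
    rw [h1, h2]; exact mul_mem (hv.2 x hx) (hw.2 x hx)⟩
  inv_mem' := fun {v} hv => by
    have : v⁻¹ = v := S.inv_eq hv.1
    show v⁻¹ ∈ S.V ∧ ∀ x ∈ S.P, ⁅x, v⁻¹⁆ ∈ zpowers S.z
    rw [this]; exact hv

theorem mem_W {v : G} : v ∈ S.W ↔ v ∈ S.V ∧ ∀ x ∈ S.P, ⁅x, v⁆ ∈ zpowers S.z := Iff.rfl

theorem W_le_V : S.W ≤ S.V := fun _ h => h.1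

theorem f_mem_W {a : ℕ} (ha : a < 2048) : S.f a ∈ S.W ↔
    ∀ g ∈ D.E, D.act (cd g) a ^^^ a = 0 ∨ D.act (cd g) a ^^^ a = D.z0 := by
  rw [mem_W]
  constructor
  · intro h g hg
    obtain ⟨m, hm, rfl⟩ := S.exists_pre hg
    rw [← S.f_mem_zpowers_z (xor_lt (D.act_lt _ _) ha), ← S.comm_f (S.pre_le_M _ hm) ha]
    exact h.2 m hm
  · intro h
    refine ⟨S.f_mem ha, fun x hx => ?_⟩
    rw [S.comm_f (S.pre_le_M _ hx) ha, S.f_mem_zpowers_z (xor_lt (D.act_lt _ _) ha)]
    exact h _ (S.mem_pre.1 hx).2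

/-- The conjugate `g A g⁻¹` of a subgroup. -/
abbrev _root_.Cfsg.Agent.R24.cj (g : G) (A : Subgroup G) : Subgroup G :=
  A.map (MulAut.conj g).toMonoidHom

theorem _root_.Cfsg.Agent.R24.mem_cj {g x : G} {A : Subgroup G} :
    x ∈ cj g A ↔ g⁻¹ * x * g ∈ A := by
  constructor
  · rintro ⟨y, hy, rfl⟩; simpa [mul_assoc] using hy
  · intro h; exact ⟨_, h, by simp [mul_assoc]⟩

end St

end Cfsg.Agent.R24
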