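import Cfsg.Agent.R24.Def

/-!
# S3318: a checker for equivariant coordinates on a module of `M24` generated by one orbit
-/

set_option autoImplicit false

namespace Cfsg.Agent.R24

open Cfsg Cfsg.Agent.Comp Cfsg.Agent.Spor Cfsg.Agent.Spor.M24C Subgroup
open scoped Pointwise commutatorElement

section Sel
variable {W : Type*} [CommGroup W]

/-- Product of the members of `l` selected by the bits of `a`. -/
def prodSel : List W → ℕ → W
  | [], _ => 1
  | b :: l, a => (if a % 2 = 1 then b else 1) * prodSel l (a / 2)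

theorem prodSel_zero (l : List W) : prodSel l 0 = 1 := by
  induction l with
  | nil => rfl
  | cons b l ih => simp [prodSel, ih]

theorem prodSel_xor (h2 : ∀ w : W, w * w = 1) (l : List W) (a a' : ℕ) :
    prodSel l (a ^^^ a') = prodSel l a * prodSel l a' := by
  induction l generalizing a a' with
  | nil => simp [prodSel]
  | cons b l ih =>
    simp only [prodSel, Nat.xor_div_two, ih]
    have h : (if (a ^^^ a') % 2 = 1 then b else 1) =
        (if a % 2 = 1 then b else 1) * (if a' % 2 = 1 then b else 1) := by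
      rw [Nat.xor_mod_two_eq]
      rcases Nat.mod_two_eq_zero_or_one a with h | h <;>
        rcases Nat.mod_two_eq_zero_or_one a' with h' | h' <;> simp [Nat.add_mod, h, h', h2]
    rw [h]
    exact mul_mul_mul_comm _ _ _ _

theorem prodSel_two_pow (l : List W) (i : ℕ) : prodSel l (2 ^ i) = l.getD i 1 := by
  induction l generalizing i with
  | nil => rfl
  | cons b l ih =>
    cases i with
    | zero => simp [prodSel, prodSel_zero]
    | succ i =>
      have h1 : 2 ^ (i + 1) % 2 = 0 := by rw [pow_succ]; omega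
      have h2 : 2 ^ (i + 1) / 2 = 2 ^ i := by rw [pow_succ]; omega
      simp [prodSel, h1, h2, ih]

theorem xorSel_ind (A : ℕ → Prop) (h0 : A 0) (hx : ∀ a b, A a → A b → A (a ^^^ b)) (l : List ℕ)
    (hl : ∀ a ∈ l, A a) (m : ℕ) : A (xorSel l m) := by
  induction l generalizing m with
  | nil => exact h0
  | cons b l ih =>
    refine hx _ _ ?_ (ih (fun c hc => hl c (List.mem_cons_of_mem _ hc)) _)
    split_ifs
    · exact hl b List.mem_cons_self
    · exact h0

/-- An entry `a + 2048 m` says `φ a = F m`. -/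
def Inv (φ F : ℕ → W) (L : List ℕ) : Prop := ∀ e ∈ L, φ (e % 2048) = F (e / 2048)

/-- The first entry for the point `a`. -/
noncomputable def lk (L : List ℕ) (a : ℕ) : ℕ :=
  List.rec (motive := fun _ => ℕ) 0 (fun e _ ih => ite' (Nat.beq (Nat.mod e 2048) a) e ih) L

omit [CommGroup W] in
theorem lk_inv {φ F : ℕ → W} (h0 : φ 0 = F 0) {L : List ℕ} (hL : Inv φ F L) (a : ℕ) :
    φ (lk L a % 2048) = F (lk L a / 2048) := by
  induction L with
  | nil =>
    have : lk [] a = 0 := rfl
    rw [this]; exact h0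
  | cons e L ih =>
    have : lk (e :: L) a = ite' (Nat.beq (Nat.mod e 2048) a) e (lk L a) := rfl
    rw [this, ite'_eq]
    split_ifs
    · exact hL e List.mem_cons_self
    · exact ih fun c hc => hL c (List.mem_cons_of_mem _ hc)

omit [CommGroup W] in
theorem getL_inv {φ F : ℕ → W} (h0 : φ 0 = F 0) {L : List ℕ} (hL : Inv φ F L) (i : ℕ) :
    φ (getL 0 L i % 2048) = F (getL 0 L i / 2048) := by
  rw [getL_eq, List.getD_eq_getElem?_getD]
  cases h : L[i]? with
  | none => exact h0
  | some c => exact hL c (List.mem_of_getElem? h)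

/-- The initial entries. -/
noncomputable def ini (p : List ℕ) : List ℕ :=
  (List.range p.length).map fun i => getL 0 p i + 2048 * 2 ^ i

theorem ini_inv (φ : ℕ → W) {p : List ℕ} (hp : ∀ a ∈ p, a < 2048) :
    Inv φ (prodSel (p.map φ)) (ini p) := by
  intro e he
  obtain ⟨i, hi, rfl⟩ := List.mem_map.1 he
  have hi' := List.mem_range.1 hi
  have h1 : getL 0 p i = p[i] := by rw [getL_eq, List.getD_eq_getElem _ _ hi']
  have h2 := hp _ (List.getElem_mem hi')
  rw [h1, Nat.add_mul_mod_self_left, Nat.mod_eq_of_lt h2, Nat.add_mul_div_left _ _ (by norm_num),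
    Nat.div_eq_of_lt h2, zero_add, prodSel_two_pow,
    List.getD_eq_getElem _ _ (by simpa using hi'), List.getElem_map]

/-- The relation `φ x φ y φ z = 1` and its conjugates. -/
def Rel (D : Md) (φ : ℕ → W) (x y z : ℕ) : Prop :=
  ∀ g : M24, φ (D.act (cd g) x) * φ (D.act (cd g) y) * φ (D.act (cd g) z) = 1

/-- One deduction. -/
noncomputable def engStep (D : Md) (x y z g : ℕ) (L : List ℕ) (k : List ℕ → List ℕ) : List ℕ :=
  force (D.act g x) fun a => force (D.act g y) fun b => force (lk L a) fun ea =>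
    force (lk L b) fun eb => ite' (and' (okM g) (and' (Nat.beq (Nat.mod ea 2048) a)
      (Nat.beq (Nat.mod eb 2048) b)))
      (force (Nat.add (D.act g z) (Nat.mul 2048 (Nat.xor (Nat.div ea 2048) (Nat.div eb 2048))))
        fun n => k (n :: L)) (k L)

/-- A list of deductions from two relations. -/
noncomputable def eng (D : Md) (x y z x' y' z' : ℕ) (prog : List ℕ) : List ℕ → List ℕ :=
  List.rec (motive := fun _ => List ℕ → List ℕ) (fun L => L)
    (fun s _ ih L => force (Nat.div s 2) fun g =>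
      ite' (Nat.beq (Nat.mod s 2) 0) (engStep D x y z g L ih) (engStep D x' y' z' g L ih)) prog

theorem engStep_inv (h2 : ∀ w : W, w * w = 1) {D : Md} {φ F : ℕ → W} (h0 : φ 0 = F 0)
    (hF : ∀ a b, F (a ^^^ b) = F a * F b) {x y z : ℕ} (hR : Rel D φ x y z) (g : ℕ) {L : List ℕ}
    (hL : Inv φ F L) {k : List ℕ → List ℕ} (hk : ∀ L, Inv φ F L → Inv φ F (k L)) :
    Inv φ F (engStep D x y z g L k) := by
  simp only [engStep, force_eq, ite'_eq]
  split_ifs with h
  · simp only [and'_eq_true, beq_iff] at h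
    refine hk _ fun e he => ?_
    rcases List.mem_cons.1 he with rfl | he
    · have h1 := lk_inv h0 hL (D.act g x)
      have h3 := lk_inv h0 hL (D.act g y)
      have h4 := hR (mc g)
      rw [cd_mc h.1] at h4
      have e1 : lk L (D.act g x) % 2048 = D.act g x := h.2.1
      have e2 : lk L (D.act g y) % 2048 = D.act g y := h.2.2
      rw [e1] at h1
      rw [e2] at h3
      change φ ((D.act g z + 2048 * (lk L (D.act g x) / 2048 ^^^ lk L (D.act g y) / 2048)) % 2048)
        = F ((D.act g z + 2048 * (lk L (D.act g x) / 2048 ^^^ lk L (D.act g y) / 2048)) / 2048)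
      rw [Nat.add_mul_mod_self_left, Nat.mod_eq_of_lt (D.act_lt _ _),
        Nat.add_mul_div_left _ _ (by norm_num), Nat.div_eq_of_lt (D.act_lt _ _), zero_add, hF,
        ← h1, ← h3]
      exact mul_left_cancel (h4.trans (h2 _).symm)
    · exact hL e he
  · exact hk _ hL

theorem eng_inv (h2 : ∀ w : W, w * w = 1) {D : Md} {φ F : ℕ → W} (h0 : φ 0 = F 0)
    (hF : ∀ a b, F (a ^^^ b) = F a * F b) {x y z x' y' z' : ℕ} (hR : Rel D φ x y z)
    (hR' : Rel D φ x' y' z') (prog : List ℕ) {L : List ℕ} (hL : Inv φ F L) :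
    Inv φ F (eng D x y z x' y' z' prog L) := by
  induction prog generalizing L with
  | nil => exact hL
  | cons s prog ih =>
    have : eng D x y z x' y' z' (s :: prog) L = force (Nat.div s 2) fun g =>
      ite' (Nat.beq (Nat.mod s 2) 0) (engStep D x y z g L (eng D x y z x' y' z' prog))
        (engStep D x' y' z' g L (eng D x y z x' y' z' prog)) := rfl
    rw [this, force_eq, ite'_eq]
    split_ifs
    · exact engStep_inv h2 h0 hF hR _ hL fun _ => ih
    · exact engStep_inv h2 h0 hF hR' _ hL fun _ => ih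

/-- The point `a` has the entry `m` or `m ^^^ κ`. -/
noncomputable def has (L : List ℕ) (κ a m : ℕ) : Bool :=
  force (lk L a) fun e => and' (Nat.beq (Nat.mod e 2048) a)
    (force (Nat.xor (Nat.div e 2048) m) fun d => or' (Nat.beq d 0) (Nat.beq d κ))

theorem has_spec (h2 : ∀ w : W, w * w = 1) {φ F : ℕ → W} (h0 : φ 0 = F 0) (hF0 : F 0 = 1)
    (hF : ∀ a b, F (a ^^^ b) = F a * F b) {L : List ℕ} (hL : Inv φ F L) {κ a m : ℕ}
    (hκ : F κ = 1) (h : has L κ a m = true) : φ a = F m := by
  simp only [has, force_eq, and'_eq_true, or'_eq_true, beq_iff] at h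
  have h1 := lk_inv h0 hL a
  have e1 : lk L a % 2048 = a := h.1
  rw [e1] at h1
  have h3 : F (lk L a / 2048 ^^^ m) = 1 := by
    rcases h.2 with e | e
    · exact (congrArg F e).trans hF0
    · exact (congrArg F e).trans hκ
  rw [hF] at h3
  rw [h1]
  exact mul_right_cancel (h3.trans (h2 _).symm)

/-- The three points have entries with sum `m`. -/
noncomputable def has3 (L : List ℕ) (a b c m : ℕ) : Bool :=
  force a fun a => force b fun b => force c fun c => force (Nat.div (lk L a) 2048) fun ma =>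
    force (Nat.div (lk L b) 2048) fun mb => and' (has L 0 a ma) (and' (has L 0 b mb)
      (has L 0 c (Nat.xor (Nat.xor ma mb) m)))

theorem has3_spec (h2 : ∀ w : W, w * w = 1) {φ F : ℕ → W} (h0 : φ 0 = F 0) (hF0 : F 0 = 1)
    (hF : ∀ a b, F (a ^^^ b) = F a * F b) {L : List ℕ} (hL : Inv φ F L) {a b c m : ℕ}
    (h : has3 L a b c m = true) : φ a * φ b * φ c = F m := by
  simp only [has3, force_eq, and'_eq_true] at h
  rw [has_spec h2 h0 hF0 hF hL hF0 h.1, has_spec h2 h0 hF0 hF hL hF0 h.2.1,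
    has_spec h2 h0 hF0 hF hL hF0 h.2.2]
  change _ * F ((_ ^^^ _) ^^^ m) = _
  rw [hF, hF, ← mul_assoc, h2, one_mul]

end Sel

variable {W : Type*} [CommGroup W] [MulDistribMulAction M24 W]

open Classical in
/-- The equivariant map from the orbit of `z0` to the orbit of `v`. -/
noncomputable def ph (D : Md) (v : W) (a : ℕ) : W :=
  if h : ∃ g : M24, D.act (cd g) D.z0 = a then h.choose • v else 1

theorem ph_act {D : Md} {v : W} (hv : ∀ g ∈ D.S0, g • v = v) (g : M24) :
    ph D v (D.act (cd g) D.z0) = g • v := by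
  have h : ∃ g' : M24, D.act (cd g') D.z0 = D.act (cd g) D.z0 := ⟨g, rfl⟩
  rw [ph, dif_pos h]
  have h1 : g⁻¹ * h.choose ∈ D.S0 := by
    rw [D.mem_S0', D.act_mul _ _ D.z0_lt, h.choose_spec, D.act_inv_act _ D.z0_lt]
  have h2 := congrArg (g • ·) (hv _ h1)
  simpa [← mul_smul] using h2

theorem ph_zero (D : Md) (v : W) : ph D v 0 = 1 :=
  dif_neg fun ⟨g, hg⟩ => D.z0_ne (D.act_inj g D.z0_lt (by norm_num) (hg.trans (D.act_zero g).symm))

theorem ph_smul {D : Md} {v : W} (hv : ∀ g ∈ D.S0, g • v = v) {c : ℕ} (hc : okM c = true)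
    (g : M24) : ph D v (D.act (cd g) (D.act c D.z0)) = g • ph D v (D.act c D.z0) := by
  rw [← cd_mc hc, ← D.act_mul _ _ D.z0_lt, ph_act hv, ph_act hv, mul_smul]

/-- The points given by codes. -/
noncomputable def pts (D : Md) (hs : List ℕ) : List ℕ := hs.map fun h => D.act h D.z0

theorem pts_lt (D : Md) (hs : List ℕ) : ∀ a ∈ pts D hs, a < 2048 := fun a ha => by
  obtain ⟨h, -, rfl⟩ := List.mem_map.1 ha
  exact D.act_lt _ _

theorem rel_of {D : Md} {v : W} (hv : ∀ g ∈ D.S0, g • v = v) {a b c x y z : ℕ}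
    (h : and' (allL [a, b, c] okM) (and' (Nat.beq (D.act a D.z0) x) (and' (Nat.beq (D.act b D.z0) y)
      (Nat.beq (D.act c D.z0) z))) = true) (g : M24) :
    ph D v (D.act (cd g) x) * ph D v (D.act (cd g) y) * ph D v (D.act (cd g) z) =
      g • (ph D v x * ph D v y * ph D v z) := by
  simp only [and'_eq_true, beq_iff, allL_iff] at h
  obtain ⟨h, rfl, rfl, rfl⟩ := h
  rw [ph_smul hv (h a (by simp)), ph_smul hv (h b (by simp)), ph_smul hv (h c (by simp)),
    smul_mul', smul_mul']

/-- The product `φ x φ y φ z` is invariant under the elements with codes in `G`. -/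
noncomputable def invOK (D : Md) (L : List ℕ) (x y z m : ℕ) (G : List ℕ) : Bool :=
  and' (has3 L x y z m) (allL G fun g => and' (okM g) (has3 L (D.act g x) (D.act g y) (D.act g z) m))

theorem invOK_spec (h2 : ∀ w : W, w * w = 1) {D : Md} {v : W} {F : ℕ → W} (hF0 : F 0 = 1)
    (hF : ∀ a b, F (a ^^^ b) = F a * F b) {L : List ℕ} (hL : Inv (ph D v) F L) {x y z m : ℕ}
    (hR : ∀ g : M24, ph D v (D.act (cd g) x) * ph D v (D.act (cd g) y) * ph D v (D.act (cd g) z) =
      g • (ph D v x * ph D v y * ph D v z)) {G : List ℕ} (h : invOK D L x y z m G = true) :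
    ∀ c ∈ G, InH (MulAction.stabilizer M24 (ph D v x * ph D v y * ph D v z)) c := by
  simp only [invOK, and'_eq_true, allL_iff] at h
  have h0 : ph D v 0 = F 0 := (ph_zero D v).trans hF0.symm
  refine fun c hc => inH_of_okM (h.2 c hc).1 (MulAction.mem_stabilizer_iff.2 ?_)
  rw [← hR, cd_mc (h.2 c hc).1, has3_spec h2 h0 hF0 hF hL (h.2 c hc).2, has3_spec h2 h0 hF0 hF hL h.1]

/-- The final check. -/
noncomputable def finOK (D : Md) (p L μ : List ℕ) (i j κ : ℕ) : Bool :=
  and' (and' (Nat.beq (Nat.mod (getL 0 L i) 2048) (Nat.mod (getL 0 L j) 2048))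
    (Nat.beq (Nat.xor (Nat.div (getL 0 L i) 2048) (Nat.div (getL 0 L j) 2048)) κ))
  (and' (allL [oneC, cT, cP, cC] fun g => allL p fun a => force (D.act g a) fun b =>
      has L κ b (xorSel μ b))
    (allB 2048 fun a => force (xorSel μ a) fun m => Nat.beq (xorSel p m) a))

theorem finOK_spec (h2 : ∀ w : W, w * w = 1) {D : Md} {v : W} (hv : ∀ g ∈ D.S0, g • v = v)
    {hs : List ℕ} (hok : allL hs okM = true) (hne : hs ≠ []) {F : ℕ → W} (hF0 : F 0 = 1)
    (hF : ∀ a b, F (a ^^^ b) = F a * F b) {L : List ℕ} (hL : Inv (ph D v) F L) {μ : List ℕ}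
    {i j κ : ℕ} (h : finOK D (pts D hs) L μ i j κ = true) :
    ∃ f : ℕ → W, (∀ a b, f (a ^^^ b) = f a * f b) ∧
      (∀ g : M24, ∀ a < 2048, g • f a = f (D.act (cd g) a)) ∧ ∃ a < 2048, ∃ g : M24, f a = g • v := by
  simp only [finOK, and'_eq_true, allL_iff, allB_iff, beq_iff, force_eq] at h
  obtain ⟨⟨k1, k2⟩, k3, k4⟩ := h
  have h0 : ph D v 0 = F 0 := (ph_zero D v).trans hF0.symm
  have hκ : F κ = 1 := by
    have e1 := getL_inv h0 hL i
    have e2 := getL_inv h0 hL j
    have e3 : getL 0 L i % 2048 = getL 0 L j % 2048 := k1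
    have e4 : getL 0 L i / 2048 ^^^ getL 0 L j / 2048 = κ := k2
    rw [← e4, hF, ← e1, ← e2, e3, h2]
  have hmul : ∀ a b, F (xorSel μ (a ^^^ b)) = F (xorSel μ a) * F (xorSel μ b) := fun a b => by
    rw [xorSel_xor, hF]
  have hz : F (xorSel μ 0) = 1 := by
    have := hmul 0 0
    rw [Nat.xor_self, h2] at this
    exact this
  have hp : ∀ a ∈ pts D hs, ph D v a = F (xorSel μ a) := fun a ha => by
    have := has_spec h2 h0 hF0 hF hL hκ (k3 oneC (by simp) a ha)
    rwa [← cd_one, D.act_one (pts_lt D hs a ha)] at this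
  have hok' := (allL_iff _ _).1 hok
  have hgen : ∀ c ∈ [cT, cP, cC], okM c = true := by decide +kernel
  let K : Subgroup M24 :=
    { carrier := {g | ∀ a < 2048, g • F (xorSel μ a) = F (xorSel μ (D.act (cd g) a))}
      one_mem' := fun a ha => by rw [one_smul, D.act_one ha]
      mul_mem' := fun {g h} hg hh a ha => by
        rw [mul_smul, hh a ha, hg _ (D.act_lt _ _), D.act_mul _ _ ha]
      inv_mem' := fun {g} hg a ha => by
        rw [inv_smul_eq_iff, hg _ (D.act_lt _ _), D.act_act_inv _ ha] }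
  have hK : gen [cT, cP, cC] ≤ K := gen_le fun c hc => inH_of_okM (hgen c hc) fun a ha => by
    rw [← k4 a ha]
    refine (xorSel_ind (fun a => a < 2048 ∧
      mc c • F (xorSel μ a) = F (xorSel μ (D.act (cd (mc c)) a))) ⟨by norm_num, ?_⟩
      (fun a b ha hb => ⟨xor_lt ha.1 hb.1, ?_⟩) _ (fun a ha => ⟨pts_lt D hs a ha, ?_⟩) _).2
    · rw [D.act_zero, hz, smul_one]
    · rw [D.act_xor _ ha.1 hb.1, hmul, hmul, smul_mul', ha.2, hb.2]
    · rw [← hp a ha, cd_mc (hgen c hc),
        ← has_spec h2 h0 hF0 hF hL hκ (k3 c (List.mem_cons_of_mem _ hc) a ha)]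
      obtain ⟨h, hh, rfl⟩ := List.mem_map.1 ha
      rw [← ph_smul hv (hok' h hh), cd_mc (hgen c hc)]
  have hstd : gen [cT, cP, cC] = ⊤ := by unfold cT cP cC; exact gen_std
  refine ⟨fun a => F (xorSel μ a), hmul, fun g => hK (hstd.ge (mem_top g)), ?_⟩
  obtain ⟨h, hh⟩ := List.exists_mem_of_ne_nil hs hne
  refine ⟨D.act h D.z0, D.act_lt _ _, mc h, ?_⟩
  rw [← ph_act hv, cd_mc (hok' h hh)]
  exact (hp _ (List.mem_map.2 ⟨h, hh, rfl⟩)).symm

end Cfsg.Agent.R24
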