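import Cfsg.Agent.R24.Def

/-!
# S3318: general lemmas reducing `Md.Tab` to kernel checks
-/

set_option autoImplicit false
set_option linter.unusedSimpArgs false

namespace Cfsg.Agent.R24

open Cfsg Cfsg.Agent.Comp Cfsg.Agent.Spor Cfsg.Agent.Spor.M24C Subgroup
open scoped Pointwise commutatorElement

/-- The sum of the entries of `l` selected by the bits of `m`. -/
noncomputable def xsum (l : List ℕ) : ℕ → ℕ :=
  List.rec (motive := fun _ => ℕ → ℕ) (fun _ => 0)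
    (fun v _ ih m => force (Nat.shiftRight m 1) fun m' =>
      ite' (tb m 0) (Nat.xor v (ih m')) (ih m')) l

theorem xsum_mem {A : ℕ → Prop} (hx : ∀ a b, A a → A b → A (a ^^^ b)) (h0 : A 0) (l : List ℕ)
    (hl : ∀ v ∈ l, A v) (m : ℕ) : A (xsum l m) := by
  induction l generalizing m with
  | nil => exact h0
  | cons v l ih =>
    have : xsum (v :: l) m = force (Nat.shiftRight m 1) fun m' =>
      ite' (tb m 0) (v ^^^ xsum l m') (xsum l m') := rfl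
    have ih' := ih fun w hw => hl w (List.mem_cons_of_mem _ hw)
    rw [this, force_eq, ite'_eq]
    split_ifs
    · exact hx _ _ (hl v List.mem_cons_self) (ih' _)
    · exact ih' _

/-- The standard basis. -/
def tbs : List ℕ := [1, 2, 4, 8, 16, 32, 64, 128, 256, 512, 1024]

theorem tbs_lt : ∀ a ∈ tbs, a < 2048 := by decide

theorem tbs_aux : allB 2048 (fun a => Nat.beq (xsum tbs a) a) = true := by decide +kernel

theorem forall_of_bs {A : ℕ → Prop} (hx : ∀ a b, A a → A b → A (a ^^^ b)) (h0 : A 0)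
    (h : ∀ a ∈ tbs, A a) : ∀ a < 2048, A a := fun a ha =>
  (beq_iff _ _).1 ((allB_iff _ _).1 tbs_aux a ha) ▸ xsum_mem hx h0 tbs h a

theorem xor4 (a b c d : ℕ) : (a ^^^ b) ^^^ (c ^^^ d) = (a ^^^ c) ^^^ (b ^^^ d) := by ac_rfl

theorem xor3 (a b c : ℕ) : (a ^^^ b) ^^^ (b ^^^ c) = a ^^^ c := by
  rw [Nat.xor_assoc, ← Nat.xor_assoc b, Nat.xor_self, Nat.zero_xor]

theorem xor01 {x y z : ℕ} (hx : x = 0 ∨ x = z) (hy : y = 0 ∨ y = z) :
    x ^^^ y = 0 ∨ x ^^^ y = z := by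
  rcases hx with rfl | rfl <;> rcases hy with rfl | rfl <;> simp

theorem eq_one_of_two {P : Subgroup M24} (h2 : IsPGroup 2 P) {t : M24} (ht : t ∈ P)
    (h3 : t ^ 3 = 1) : t = 1 := by
  obtain ⟨k, hk⟩ := h2 ⟨t, ht⟩
  have h1 : t ^ 2 ^ k = 1 := congrArg Subtype.val hk
  rw [← orderOf_eq_one_iff]
  exact Nat.eq_one_of_dvd_coprimes (Nat.Coprime.pow_left k (by norm_num : Nat.Coprime 2 3))
    (orderOf_dvd_of_pow_eq_one h1) (orderOf_dvd_of_pow_eq_one h3)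

theorem conj_sup {K Y Z : Subgroup M24} (hY : ∀ g ∈ K, ∀ x ∈ Y, g * x * g⁻¹ ∈ Y)
    (hZ : ∀ g ∈ K, ∀ x ∈ Z, g * x * g⁻¹ ∈ Z) : ∀ g ∈ K, ∀ x ∈ Y ⊔ Z, g * x * g⁻¹ ∈ Y ⊔ Z := by
  intro g hg
  have : Y ⊔ Z ≤ (Y ⊔ Z).comap (MulAut.conj g).toMonoidHom :=
    sup_le (fun x hx => mem_sup_left (hY g hg x hx)) fun x hx => mem_sup_right (hZ g hg x hx)
  exact fun x hx => this hx

theorem le_normalizer_of_conj_tab {K Y : Subgroup M24} (hY : ∀ g ∈ K, ∀ x ∈ Y, g * x * g⁻¹ ∈ Y) :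
    K ≤ normalizer (Y : Set M24) := fun g hg => mem_normalizer_iff.2 fun x =>
  ⟨hY g hg x, fun h => by simpa [mul_assoc] using hY _ (inv_mem hg) _ h⟩

/-- The image of a normal subgroup of `K` under a map defined on `K`. -/
theorem map_normal {K Y : Subgroup M24} {Q : Type*} [Group Q] (φ : K →* Q)
    (hφ : Function.Surjective φ) (hY : ∀ g ∈ K, ∀ x ∈ Y, g * x * g⁻¹ ∈ Y) :
    ((Y.subgroupOf K).map φ).Normal :=
  Normal.map (H := Y.subgroupOf K) ⟨fun x hx g => hY g g.2 x hx⟩ φ hφ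

namespace Md
variable (D : Md)

theorem inW_zero : D.inW 0 := fun g _ => Or.inl (by rw [D.act_zero]; rfl)

theorem inW_xor {a b : ℕ} (ha : a < 2048) (hb : b < 2048) (h1 : D.inW a) (h2 : D.inW b) :
    D.inW (a ^^^ b) := fun g hg => by
  rw [D.act_xor g ha hb, xor4]; exact xor01 (h1 g hg) (h2 g hg)

theorem inW_z0 (hE : D.E ≤ D.S0) : D.inW D.z0 := fun g hg =>
  Or.inl (by rw [(D.mem_S0' g).1 (hE hg), Nat.xor_self])

theorem act01 {g : M24} (hg : g ∈ D.S0) {x : ℕ} (hx : x = 0 ∨ x = D.z0) :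
    D.act (cd g) x = 0 ∨ D.act (cd g) x = D.z0 := by
  rcases hx with rfl | rfl
  · exact Or.inl (D.act_zero g)
  · exact Or.inr ((D.mem_S0' g).1 hg)

theorem act_conj (k g : M24) {a : ℕ} (ha : a < 2048) :
    D.act (cd (k * g * k⁻¹)) a ^^^ a =
      D.act (cd k) (D.act (cd g) (D.act (cd k⁻¹) a) ^^^ D.act (cd k⁻¹) a) := by
  rw [D.act_xor k (D.act_lt _ _) (D.act_lt _ _), D.act_act_inv k ha, D.act_mul _ _ ha,
    D.act_mul _ _ (D.act_lt _ _)]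

theorem inW_act (hc : ∀ g ∈ D.S0, ∀ x ∈ D.E, g * x * g⁻¹ ∈ D.E) {g : M24} (hg : g ∈ D.S0)
    {a : ℕ} (ha : a < 2048) (h : D.inW a) : D.inW (D.act (cd g) a) := fun e he => by
  have h1 := D.act_conj g (g⁻¹ * e * g⁻¹⁻¹) (D.act_lt (cd g) a)
  rw [D.act_inv_act g ha, show g * (g⁻¹ * e * g⁻¹⁻¹) * g⁻¹ = e by group] at h1
  rw [h1]
  exact D.act01 hg (h _ (hc _ (inv_mem hg) e he))

/-- The kernel of `S0` on `V/W`. -/
def KVW : Subgroup M24 where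
  carrier := {g | g ∈ D.S0 ∧ ∀ a < 2048, D.inW (D.act (cd g) a ^^^ a)}
  one_mem' := ⟨one_mem _, fun a ha => by rw [D.act_one ha, Nat.xor_self]; exact D.inW_zero⟩
  mul_mem' := fun {g h} hg hh => ⟨mul_mem hg.1 hh.1, fun a ha => by
    rw [D.act_mul _ _ ha, ← xor3 _ (D.act (cd h) a)]
    exact D.inW_xor (xor_lt (D.act_lt _ _) (D.act_lt _ _)) (xor_lt (D.act_lt _ _) ha)
      (hg.2 _ (D.act_lt _ _)) (hh.2 a ha)⟩
  inv_mem' := fun {g} hg => ⟨inv_mem hg.1, fun a ha => by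
    have := hg.2 _ (D.act_lt (cd g⁻¹) a)
    rwa [D.act_act_inv g ha, Nat.xor_comm] at this⟩

theorem VW_of_bs {g : M24} (h : ∀ a ∈ tbs, D.inW (D.act (cd g) a ^^^ a)) :
    ∀ a < 2048, D.inW (D.act (cd g) a ^^^ a) := fun a ha =>
  (forall_of_bs (A := fun a => a < 2048 ∧ D.inW (D.act (cd g) a ^^^ a))
    (fun a b ha hb => ⟨xor_lt ha.1 hb.1, by
      rw [D.act_xor g ha.1 hb.1, xor4]
      exact D.inW_xor (xor_lt (D.act_lt _ _) ha.1) (xor_lt (D.act_lt _ _) hb.1) ha.2 hb.2⟩)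
    ⟨by norm_num, by rw [D.act_zero]; exact D.inW_zero⟩
    (fun a ha => ⟨tbs_lt a ha, h a ha⟩) a ha).2

/-- The kernel of `S0` on `W/⟨z⟩`. -/
def KWz (hc : ∀ g ∈ D.S0, ∀ x ∈ D.E, g * x * g⁻¹ ∈ D.E) : Subgroup M24 where
  carrier := {g | g ∈ D.S0 ∧ ∀ a < 2048, D.inW a →
    D.act (cd g) a ^^^ a = 0 ∨ D.act (cd g) a ^^^ a = D.z0}
  one_mem' := ⟨one_mem _, fun a ha _ => Or.inl (by rw [D.act_one ha, Nat.xor_self])⟩
  mul_mem' := fun {g h} hg hh => ⟨mul_mem hg.1 hh.1, fun a ha hw => by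
    rw [D.act_mul _ _ ha, ← xor3 _ (D.act (cd h) a)]
    exact xor01 (hg.2 _ (D.act_lt _ _) (D.inW_act hc hh.1 ha hw)) (hh.2 a ha hw)⟩
  inv_mem' := fun {g} hg => ⟨inv_mem hg.1, fun a ha hw => by
    have := hg.2 _ (D.act_lt (cd g⁻¹) a) (D.inW_act hc (inv_mem hg.1) ha hw)
    rwa [D.act_act_inv g ha, Nat.xor_comm] at this⟩

theorem tri (hc : ∀ g ∈ D.S0, ∀ x ∈ D.E, g * x * g⁻¹ ∈ D.E) {y : M24} (hy : y ∈ D.S0)
    (h3 : y ^ 3 = 1) {x : M24} (hx : x ∈ D.E ⊔ zpowers y) :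
    x ∈ D.E ∨ x * y⁻¹ ∈ D.E ∨ x * y ∈ D.E := by
  have h1 : x ∈ ((D.E ⊔ zpowers y : Subgroup M24) : Set M24) := hx
  rw [coe_mul_of_right_le_normalizer_left _ _
    (zpowers_le.2 (le_normalizer_of_conj_tab hc hy))] at h1
  obtain ⟨e, he, _, ⟨k, rfl⟩, rfl⟩ := h1
  have h2 : k % (3 : ℕ) = 0 ∨ k % (3 : ℕ) = 1 ∨ k % (3 : ℕ) = 2 := by omega
  simp only [zpow_eq_zpow_emod' k h3]
  rcases h2 with h | h | h <;> rw [h]
  · left; simpa using he
  · right; left; simpa using he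
  · right; right
    rw [mul_assoc, show y ^ (2 : ℤ) * y = y ^ 3 by group, h3, mul_one]; exact he

theorem mid (hc : ∀ g ∈ D.S0, ∀ x ∈ D.E, g * x * g⁻¹ ∈ D.E) {y : M24} (hy : y ∈ D.S0)
    (h3 : y ^ 3 = 1) {P : Subgroup M24} (h1 : D.E ≤ P) (h2 : P ≤ D.E ⊔ zpowers y)
    (h : y ∈ P → y ∈ D.E) : P ≤ D.E := fun x hx => by
  rcases D.tri hc hy h3 (h2 hx) with h4 | h4 | h4
  · exact h4
  · simpa using mul_mem h4 (h (by simpa using mul_mem (inv_mem (h1 h4)) hx))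
  · simpa using mul_mem h4 (inv_mem (h (by simpa using mul_mem (inv_mem hx) (h1 h4))))

/-- `a` is carried by `H` into the class of `b` modulo `W`. -/
def Rel (H : Subgroup M24) (a b : ℕ) : Prop := ∃ g ∈ H, D.inW (D.act (cd g) a ^^^ b)

theorem rel_of_rank {H : Subgroup M24} {Wm : ℕ} (hW : ∀ a < 2048, D.inW a ↔ Wm.testBit a = true)
    {G : List ℕ} (hG : ∀ c ∈ G, InH H c) (R : List ℕ) (hR : ∀ r ∈ R, r < 2048) (rk : ℕ)
    (h : allB 2048 (fun a => or' (tb Wm a) (or' (anyL R fun r => tb Wm (Nat.xor a r))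
      (anyL G fun c => force (D.act c a) fun b => and' (not' (tb Wm b))
        (Nat.blt (dig 4 15 rk b) (dig 4 15 rk a))))) = true) :
    ∀ a < 2048, ¬ D.inW a → ∃ r ∈ R, D.Rel H a r := by
  simp only [allB_iff, or'_eq_true, anyL_iff, force_eq, and'_eq_true, not'_eq_true, blt_iff,
    tb_eq] at h
  intro a
  induction hn : dig 4 15 rk a using Nat.strong_induction_on generalizing a with
  | _ n ih =>
  intro ha hw
  rcases h a ha with h1 | ⟨r, hr, h1⟩ | ⟨c, hc, h1, h2⟩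
  · exact absurd ((hW a ha).2 h1) hw
  · exact ⟨r, hr, 1, one_mem _, by
      rw [D.act_one ha]; exact (hW _ (xor_lt ha (hR r hr))).2 h1⟩
  · obtain ⟨k, hk, rfl⟩ := hG c hc
    obtain ⟨r, hr, g, hg, h3⟩ := ih _ (hn ▸ h2) _ rfl (D.act_lt _ _)
      fun h4 => h1 ((hW _ (D.act_lt _ _)).1 h4)
    exact ⟨r, hr, g * k, mul_mem hg hk, by rwa [D.act_mul _ _ ha]⟩

theorem Rel.iff {D : Md} {A : ℕ → Prop} (hx : ∀ a b, A a → A b → A (a ^^^ b))
    (hA : ∀ g ∈ D.S0, ∀ a < 2048, A a → A (D.act (cd g) a)) (hW : ∀ a < 2048, D.inW a → A a)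
    {a b : ℕ} (ha : a < 2048) (hb : b < 2048) (h : D.Rel D.S0 a b) : A a ↔ A b := by
  obtain ⟨g, hg, h⟩ := h
  have h1 := hW _ (xor_lt (D.act_lt _ _) hb) h
  constructor
  · intro h2
    have := hx _ _ (hA g hg a ha h2) h1
    rwa [← Nat.xor_assoc, Nat.xor_self, Nat.zero_xor] at this
  · intro h2
    have := hx _ _ h1 h2
    rw [Nat.xor_assoc, Nat.xor_self, Nat.xor_zero] at this
    exact D.act_inv_act g ha ▸ hA _ (inv_mem hg) _ (D.act_lt _ _) this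

theorem irr_of (cs ms : List ℕ) (h1 : allL cs okM = true)
    (h2 : ms.map (xsum (cs.map fun c => D.act c D.z0)) = tbs) (A : ℕ → Prop)
    (hx : ∀ a b, A a → A b → A (a ^^^ b)) (h : ∀ g : M24, A (D.act (cd g) D.z0)) :
    ∀ a < 2048, A a := by
  have h0 : A 0 := Nat.xor_self (D.act (cd 1) D.z0) ▸ hx _ _ (h 1) (h 1)
  refine forall_of_bs hx h0 fun a ha => ?_
  rw [← h2] at ha
  obtain ⟨m, -, rfl⟩ := List.mem_map.1 ha
  refine xsum_mem hx h0 _ (fun v hv => ?_) m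
  obtain ⟨c, hc, rfl⟩ := List.mem_map.1 hv
  exact cd_mc ((allL_iff _ _).1 h1 c hc) ▸ h (mc c)

open Classical in
theorem idx4_of (s : M24) {u v : ℕ} (hu : u < 2048) (hv : v < 2048)
    (h : ∀ a ∈ [u, v, u ^^^ v], ¬ D.cz (cd s) a = true) :
    ((Finset.range 2048).filter fun a =>
      D.act (cd s) a ^^^ a = 0 ∨ D.act (cd s) a ^^^ a = D.z0).card ≤ 512 := by
  generalize hZ : ((Finset.range 2048).filter fun a =>
      D.act (cd s) a ^^^ a = 0 ∨ D.act (cd s) a ^^^ a = D.z0) = Z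
  have hm : ∀ a, a ∈ Z ↔ a < 2048 ∧ D.cz (cd s) a = true := fun a => by
    rw [← hZ, Finset.mem_filter, Finset.mem_range, cz_iff]
  have hx : ∀ a ∈ Z, ∀ b ∈ Z, D.cz (cd s) (a ^^^ b) = true := fun a ha b hb => by
    rw [hm, cz_iff] at ha hb
    rw [cz_iff, D.act_xor s ha.1 hb.1, xor4]; exact xor01 ha.2 hb.2
  let t : Fin 4 → ℕ := ![0, u, v, u ^^^ v]
  have ht : ∀ i, t i < 2048 := fun i => by
    fin_cases i
    exacts [by norm_num [t], hu, hv, xor_lt hu hv]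
  have e1 : u ^^^ (u ^^^ v) = v := by rw [← Nat.xor_assoc, Nat.xor_self, Nat.zero_xor]
  have e2 : v ^^^ (u ^^^ v) = u := by
    rw [Nat.xor_comm u, ← Nat.xor_assoc, Nat.xor_self, Nat.zero_xor]
  have hi : ∀ i j, i ≠ j → t i ^^^ t j ∈ [u, v, u ^^^ v] := fun i j hij => by
    fin_cases i <;> fin_cases j <;> first
      | exact absurd rfl hij
      | simp [t, e1, e2, Nat.xor_comm v u, Nat.xor_comm (u ^^^ v)]
  have := Finset.card_le_card_of_injOn (s := Z ×ˢ (Finset.univ : Finset (Fin 4)))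
    (t := Finset.range 2048) (fun p => p.1 ^^^ t p.2)
    (fun p hp => by
      rw [Finset.mem_coe, Finset.mem_range]
      exact xor_lt ((hm _).1 (Finset.mem_product.1 hp).1).1 (ht _))
    (fun p hp q hq e => by
      have e' : p.1 ^^^ t p.2 = q.1 ^^^ t q.2 := e
      have h1 : p.2 = q.2 := by
        by_contra hne
        refine h _ (hi _ _ hne) ?_
        have := hx _ (Finset.mem_product.1 hp).1 _ (Finset.mem_product.1 hq).1
        rwa [← xor3 p.1 (t p.2), e', Nat.xor_comm (t p.2), xor4, Nat.xor_self, Nat.zero_xor,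
          Nat.xor_comm] at this
      rw [h1] at e'
      refine Prod.ext ?_ h1
      rw [← xor_eq_zero', ← xor3 p.1 (t q.2), e', Nat.xor_comm (t q.2), Nat.xor_self])
  rw [Finset.card_product, Finset.card_range, Finset.card_univ, Fintype.card_fin] at this
  omega

/-- The kernel checks on the elements `eT b`, `b ∈ El`, of `E` (`El'` generates, `Wb ⊆ W`). -/
noncomputable def chkE (Wm : ℕ) (El El' Wb : List ℕ) : Bool :=
  and' (allL El fun b => force (eT b) fun c => and' (Nat.beq (mulC c c) oneC)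
      (and' (allL tbs fun a => tb Wm (Nat.xor (D.act c a) a)) (or' (Nat.beq c oneC)
        (and' (anyL Wb fun a => not' (Nat.beq (D.act c a) a))
          (anyL tbs fun u => and' (not' (D.cz c u)) (anyL tbs fun v => and' (not' (D.cz c v))
            (not' (force (Nat.xor u v) (D.cz c)))))))))
    (and' (allL Wb fun a => and' (Nat.blt a 2048) (tb Wm a))
      (allB 2048 fun a => or' (Nat.beq a 0) (or' (Nat.beq a D.z0)
        (anyL El' fun b => not' (Nat.beq (force (eT b) fun c => D.act c a) a)))))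

theorem tab_of {y : M24} {Wm : ℕ} (hW : ∀ a < 2048, D.inW a ↔ Wm.testBit a = true)
    {El : List ℕ} (hEl : ∀ g, g ∈ D.E ↔ ∃ b ∈ El, eT b = cd g) (El' Wb : List ℕ)
    (hEl' : ∀ b ∈ El', b ∈ El ∧ b < 1024) (hk : D.chkE Wm El El' Wb = true)
    (hT : Th ≤ D.S0) (hE : D.E ≤ Th) (hc : ∀ g ∈ D.S0, ∀ x ∈ D.E, g * x * g⁻¹ ∈ D.E)
    (irr : ∀ A : ℕ → Prop, (∀ a b, A a → A b → A (a ^^^ b)) →
      (∀ g : M24, A (D.act (cd g) D.z0)) → ∀ a < 2048, A a)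
    (four : ∃ g h : M24, D.act (cd g) D.z0 ^^^ D.act (cd h) D.z0 = D.z0 ∧
      D.inW (D.act (cd g) D.z0))
    (hy : y ∈ D.S0) (h3 : y ^ 3 = 1)
    (y_conj : ∀ g ∈ D.S0, g * y * g⁻¹ * y⁻¹ ∈ D.E ∨ g * y * g⁻¹ * y ∈ D.E)
    (y_VW : ∀ a ∈ tbs, D.inW (D.act (cd y) a ^^^ a))
    (y_Wz : y ∈ D.E ∨ ∃ a < 2048, D.inW a ∧ ¬ D.cz (cd y) a = true)
    (irrVW : ∀ A : ℕ → Prop, (∀ a b, A a → A b → A (a ^^^ b)) →
      (∀ g ∈ D.S0, ∀ a < 2048, A a → A (D.act (cd g) a)) → (∀ a < 2048, D.inW a → A a) →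
      ∀ b < 2048, A b → ¬ D.inW b → ∀ a < 2048, A a)
    (nrm : ∀ Y : Subgroup M24, D.E ≤ Y → Y ≤ D.S0 → (∀ g ∈ D.S0, ∀ x ∈ Y, g * x * g⁻¹ ∈ Y) →
      Y ≤ D.E ⊔ zpowers y ∨ D.S1 y ⊆ Y)
    {t : M24} (ht : t ∈ D.S1 y) (ht1 : ∃ a < 2048, ¬ D.inW (D.act (cd t) a ^^^ a))
    (ht2 : ∃ a < 2048, D.inW a ∧ ¬ D.cz (cd t) a = true)
    {t2 : M24} (h21 : t2 ∈ D.S1 y) (h22 : t2 * t2 = 1) (h23 : t2 ∉ D.E)
    {t3 : M24} (h31 : t3 ∈ D.S1 y) (h32 : t3 ^ 3 = 1) (h33 : t3 ≠ 1) : D.Tab y := by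
  simp only [chkE, and'_eq_true, allL_iff, allB_iff, anyL_iff, or'_eq_true, not'_eq_true,
    force_eq, beq_iff, blt_iff, tb_eq] at hk
  obtain ⟨k1, k2, k3⟩ := hk
  have hE0 : D.E ≤ D.S0 := hE.trans hT
  have two : ∀ P : Subgroup M24, IsPGroup 2 P → D.E ≤ P → P ≤ D.E ⊔ zpowers y → P ≤ D.E :=
    fun P h2 h4 h5 => D.mid hc hy h3 h4 h5 fun h6 => eq_one_of_two h2 h6 h3 ▸ one_mem _
  have onWz : ∀ g ∈ D.S0, (∀ a < 2048, D.inW a →
      D.act (cd g) a ^^^ a = 0 ∨ D.act (cd g) a ^^^ a = D.z0) → g ∈ D.E := by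
    have h4 : D.E ≤ D.KWz hc := fun g hg => ⟨hE0 hg, fun a _ hw => hw g hg⟩
    rcases nrm (D.KWz hc) h4 (fun g hg => hg.1) (fun k hk g hg =>
      ⟨mul_mem (mul_mem hk hg.1) (inv_mem hk), fun a ha hw => by
        rw [D.act_conj k g ha]
        exact D.act01 hk (hg.2 _ (D.act_lt _ _) (D.inW_act hc (inv_mem hk) ha hw))⟩) with h | h
    · refine fun g hg hg' => D.mid hc hy h3 h4 h (fun h5 => ?_) ⟨hg, hg'⟩
      rcases y_Wz with h6 | ⟨a, ha, hw, h6⟩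
      · exact h6
      · exact absurd ((D.cz_iff _ _).2 (h5.2 a ha hw)) h6
    · obtain ⟨a, ha, hw, h6⟩ := ht2
      exact absurd ((D.cz_iff _ _).2 ((h ht).2 a ha hw)) h6
  refine ⟨hT, hE, fun x hx => ?_, hc, fun a ha h => ?_, irr, four, hy, h3, y_conj,
    D.VW_of_bs y_VW, ?_, onWz, fun g h => ?_, fun s hs h1 => ?_, irrVW, nrm,
    fun Y h4 h5 h6 h7 => ?_, fun Y h5 h6 h7 => ?_, ?_⟩
  · obtain ⟨b, hb, e⟩ := (hEl x).1 hx
    exact cd_inj (by rw [cd_mul, ← e, (k1 b hb).1, cd_one])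
  · rcases k3 a ha with h1 | h1 | ⟨b, hb, h1⟩
    · exact Or.inl h1
    · exact Or.inr h1
    · have e := okM_of_inH (inH_eT (hEl' b hb).2)
      exact absurd (e ▸ h _ ((hEl _).2 ⟨b, (hEl' b hb).1, e.symm⟩)) h1
  · have h4 : D.E ≤ D.KVW := fun g hg => ⟨hE0 hg, D.VW_of_bs fun a ha => by
      obtain ⟨b, hb, e⟩ := (hEl g).1 hg
      rw [← e]
      exact (hW _ (xor_lt (D.act_lt _ _) (tbs_lt a ha))).2 ((k1 b hb).2.1 a ha)⟩
    rcases nrm D.KVW h4 (fun g hg => hg.1) (fun k hk g hg =>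
      ⟨mul_mem (mul_mem hk hg.1) (inv_mem hk), fun a ha => by
        rw [D.act_conj k g ha]
        exact D.inW_act hc hk (xor_lt (D.act_lt _ _) (D.act_lt _ _))
          (hg.2 _ (D.act_lt _ _))⟩) with h | h
    · exact fun g hg hg' => h ⟨hg, hg'⟩
    · obtain ⟨a, ha, h6⟩ := ht1
      exact absurd ((h ht).2 a ha) h6
  · obtain ⟨b, hb, e⟩ := (hEl g).1 (onWz g ((D.mem_S0' g).2 (h _ D.z0_lt (D.inW_z0 hE0)))
      fun a ha hw => Or.inl (by rw [h a ha hw, Nat.xor_self]))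
    rcases (k1 b hb).2.2 with h1 | ⟨⟨a, ha, h1⟩, -⟩
    · exact cd_inj (by rw [← e, h1, cd_one])
    · exact absurd (e ▸ h a (k2 a ha).1 ((hW a (k2 a ha).1).2 (k2 a ha).2)) h1
  · obtain ⟨b, hb, e⟩ := (hEl s).1 hs
    rcases (k1 b hb).2.2 with h2 | ⟨-, u, hu, h2, v, hv, h4, h5⟩
    · exact absurd (cd_inj (by rw [← e, h2, cd_one])) h1
    · refine D.idx4_of s (tbs_lt u hu) (tbs_lt v hv) fun a ha => ?_
      simp only [List.mem_cons, List.not_mem_nil, or_false] at ha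
      rw [← e]
      rcases ha with rfl | rfl | rfl
      exacts [h2, h4, h5]
  · refine (nrm Y h4 h5 h6).resolve_right fun h => h23 ?_
    have : (D.E.subgroupOf Y).Normal := ⟨fun x hx g => hc g (h5 g.2) x hx⟩
    obtain ⟨k, hk⟩ := h7
    have h8 := (D.E.subgroupOf Y).pow_index_mem ⟨t2, h h21⟩
    rw [show (D.E.subgroupOf Y).index = 2 * k + 1 from hk, mem_subgroupOf] at h8
    simpa [pow_succ, pow_mul, h22] using h8
  · have h8 : IsPGroup 2 (Y ⊔ D.E : Subgroup M24) := h7.to_sup_of_normal_right'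
      (isPGroup_Th.to_le hE) (h5.trans (le_normalizer_of_conj_tab hc))
    rcases nrm (Y ⊔ D.E) le_sup_right (sup_le h5 hE0) (conj_sup h6 hc) with h | h
    · exact le_sup_left.trans (two _ h8 le_sup_right h)
    · exact absurd (eq_one_of_two h8 (h h31) h32) h33
  · exact two _ isPGroup_Th.to_inf_left (le_inf hE le_sup_left) inf_le_right

end Md

end Cfsg.Agent.R24
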