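import Cfsg.Agent.R24.TabG
import Cfsg.Agent.R24.TabC
import Cfsg.Agent.R24.Enum3

/-!
# S3318: no offenders, Holt's check
-/

set_option autoImplicit false

namespace Cfsg.Agent.R24

open Cfsg Cfsg.Agent.Comp Cfsg.Agent.Spor Cfsg.Agent.Spor.M24C Subgroup
open scoped Pointwise commutatorElement

/-- No subspace of dimension `d` inside `N ∪ {0}`. -/
noncomputable def noSub (d : ℕ) : ℕ → Bool :=
  Nat.rec (motive := fun _ => ℕ → Bool) (fun _ => false) (fun d ih N =>
    or' (fewF (onz (Nat.succ d)) N) (allF (fun u => fs (Nat.land (Nat.land N (xlF N u))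
      (Nat.xor (onz 2048) (Nat.lor (onz u) (bP (Nat.log2 u))))) ih) 2048 N)) d

theorem noSub_sound {d N : ℕ} (h : noSub d N = true) {U : Finset ℕ} (h1 : ∀ a ∈ U, a < 2048)
    (h2 : ∀ a ∈ U, ∀ b ∈ U, a ^^^ b ∈ U) (h3 : ∀ a ∈ U, a ≠ 0 → N.testBit a = true) :
    U.card < 2 ^ d ∨ U.card = 0 := by
  induction d generalizing N U with
  | zero => exact absurd h Bool.false_ne_true
  | succ d ih =>
    change or' (fewF (onz (Nat.succ d)) N) (allF (fun u => fs (Nat.land (Nat.land N (xlF N u))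
      (Nat.xor (onz 2048) (Nat.lor (onz u) (bP (Nat.log2 u))))) (noSub d)) 2048 N) = true at h
    have p : 0 < 2 ^ d := by positivity
    have c0 : U.card ≤ (U.erase 0).card + 1 := by
      have := Finset.pred_card_le_card_erase (s := U) (a := 0); omega
    rw [or'_eq_true] at h
    rcases h with h | h
    · replace h := of_fewF h
      have e : onz (Nat.succ d) = 2 ^ (d + 1) - 1 := by
        rw [← Nat.one_shiftLeft]; rfl
      have := Finset.card_le_card (show U.erase 0 ⊆ bs N from fun a ha =>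
        mem_bs.2 (h3 a (Finset.mem_of_mem_erase ha) (Finset.ne_of_mem_erase ha)))
      omega
    rcases (U.erase 0).eq_empty_or_nonempty with e | e
    · rw [e, Finset.card_empty] at c0
      left; rw [pow_succ]; omega
    obtain ⟨hu0, hu⟩ := Finset.mem_erase.1 ((U.erase 0).min'_mem e)
    have hmin : ∀ a ∈ U, a ≠ 0 → (U.erase 0).min' e ≤ a := fun a ha h0 =>
      Finset.min'_le _ _ (Finset.mem_erase.2 ⟨h0, ha⟩)
    generalize (U.erase 0).min' e = u at hu0 hu hmin
    have h4 := of_allF h (h3 u hu hu0)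
    have hk := Nat.testBit_log2 hu0
    have hk' := lt_of_testBit (h1 u hu) hk
    rw [fs_eq, xlF_eq] at h4
    have h5 := ih h4 (U := U.filter fun a => a.testBit u.log2 = false)
      (fun a ha => h1 a (Finset.mem_filter.1 ha).1) (fun a ha b hb => by
        rw [Finset.mem_filter] at ha hb ⊢
        exact ⟨h2 a ha.1 b hb.1, by rw [Nat.testBit_xor, ha.2, hb.2]; rfl⟩) fun a ha h0 => by
        rw [Finset.mem_filter] at ha
        have : a ^^^ u ≠ 0 := fun e => by
          rw [xor_eq_zero'.1 e, hk] at ha; exact absurd ha.2 (by simp)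
        simp only [Nat.land_eq, Nat.xor_eq, Nat.lor_eq, Nat.testBit_and, Nat.testBit_xor,
          Nat.testBit_or, testBit_onz, testBit_bP hk', h3 a ha.1 h0,
          (testBit_xl (h1 u hu) N a).2 ⟨h1 a ha.1, h3 _ (h2 a ha.1 u hu) this⟩]
        simp [h1 a ha.1, ha.2, hmin a ha.1 h0]
    have h6 : U ⊆ (U.filter fun a => a.testBit u.log2 = false) ∪
        (U.filter fun a => a.testBit u.log2 = false).image (· ^^^ u) := fun a ha => by
      rw [Finset.mem_union, Finset.mem_image]
      cases e : a.testBit u.log2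
      · exact .inl (Finset.mem_filter.2 ⟨ha, e⟩)
      · exact .inr ⟨a ^^^ u, Finset.mem_filter.2 ⟨h2 a ha u hu, by
          rw [Nat.testBit_xor, e, hk]; rfl⟩, by simp⟩
    have h7 := (Finset.card_le_card h6).trans ((Finset.card_union_le _ _).trans
      (Nat.add_le_add_left Finset.card_image_le _))
    rw [pow_succ]; omega

/-- The image of a mask. -/
noncomputable def imgM (C M : ℕ) : ℕ := orLT 32 fun i => orLT 64 fun j =>
  force (Nat.add (Nat.mul 64 i) j) fun a =>
    ite' (tb M a) (Nat.shiftLeft 1 (Nat.xor (app C a) a)) 0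

theorem of_imgM {C M v : ℕ} (h : (imgM C M).testBit v = true) :
    ∃ a < 2048, M.testBit a = true ∧ app C a ^^^ a = v := by
  simp only [imgM, testBit_orLT, force_eq, ite'_eq, tb_eq] at h
  obtain ⟨i, hi, j, hj, h⟩ := h
  split_ifs at h with h1
  · rw [Nat.shiftLeft_eq', Nat.one_shiftLeft, Nat.testBit_two_pow, decide_eq_true_eq] at h
    exact ⟨_, show 64 * i + j < 2048 by omega, h1, h⟩
  · simp at h

/-- Four elements of `M24`. -/
def zG : List ℕ := [518284586194365917319459087372177776, 418780347532534849854698904230571700,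
  337096475686925057458084519728299666, 483066347892256731221363169037597005]

theorem ok_zG : allLT 4 (fun k => okM (getL 0 zG k)) = true := by decide +kernel

namespace Md
variable (D : Md)

/-- The conjugates of `z0`. -/
noncomputable def orb (n : ℕ) : ℕ :=
  Nat.rec (motive := fun _ => ℕ) (Nat.shiftLeft 1 D.z0) (fun _ ih => force ih fun M =>
    Nat.lor M (orLT 4 fun k => force (getL 0 zG k) fun c => force (D.cols c) fun C => imgM C M)) n

theorem of_orb {n v : ℕ} (h : (D.orb n).testBit v = true) : ∃ g : M24, D.act (cd g) D.z0 = v := by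
  induction n generalizing v with
  | zero =>
    change (1 <<< D.z0).testBit v = true at h
    rw [Nat.one_shiftLeft, Nat.testBit_two_pow, decide_eq_true_eq] at h
    exact ⟨1, (D.act_one D.z0_lt).trans h⟩
  | succ n ih =>
    change (force (D.orb n) fun M => Nat.lor M (orLT 4 fun k => force (getL 0 zG k) fun c =>
      force (D.cols c) fun C => imgM C M)).testBit v = true at h
    simp only [force_eq, Nat.lor_eq, Nat.testBit_or, Bool.or_eq_true, testBit_orLT] at h
    rcases h with h | ⟨k, hk, h⟩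
    · exact ih h
    obtain ⟨a, ha, h1, rfl⟩ := of_imgM h
    obtain ⟨g, rfl⟩ := ih h1
    refine ⟨mc (getL 0 zG k) * g, ?_⟩
    rw [← cd_mc ((allLT_iff _ _).1 ok_zG k hk), (D.col _).app_eq ha, mc_cd, D.act_mul _ _ D.z0_lt]
    simp

/-- The columns of the involutions. -/
noncomputable def ccs : ℕ := pk 121 191 fun i => force (iv i) D.cols

theorem col_ccs {i : ℕ} (hi : i < 191) :
    Col (fun a => D.act (cd (mc (iv i))) a ^^^ a) (dig 121 (onz 121) D.ccs i) := by
  rw [ccs, dig_pk _ hi, force_eq]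
  · simpa only [cd_iv hi] using D.col (mc (iv i))
  · intro k _ j hj
    simp only [force_eq, cols, pk, testBit_orLT] at hj
    obtain ⟨l, hl, h⟩ := hj
    rw [Nat.shiftLeft_eq', Nat.shiftLeft_eq', Nat.testBit_shiftLeft, Bool.and_eq_true,
      Nat.one_shiftLeft] at h
    have := lt_of_testBit (xor_lt (D.act_lt _ _) (pow_lt hl)) h.2
    rw [Nat.mul_eq] at this
    omega

/-- The test at one subgroup. -/
noncomputable def tstE (Z CC F r X C : ℕ) : Bool :=
  and' (and' (Nat.ble r 6) (fewF (Nat.succ (Nat.shiftRight 1024 r)) C))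
    (fs (Nat.land C (Nat.xor (onz 2048) Z)) fun N =>
      or' (fs (Nat.xor N 1) (noSub (Nat.succ (Nat.sub 5 r))))
        (allF (fun τ => anyF (fun x => force (dig 121 (onz 121) CC x) fun c =>
          anyF (fun v => not' (or' (Nat.beq (app c v) 0) (tb N (app c v)))) 200
            (dig 2048 (onz 2048) F τ)) 64 X) 64 X))

/-- The whole check. -/
noncomputable def chkFH : Bool := force (D.orb 7) fun Z => force D.ccs fun CC => D.runG (tstE Z CC)

variable {D}

theorem ff_of (h : D.chkFH = true) : D.FF := by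
  intro X h2 h1
  obtain ⟨g, hg⟩ := exists_cj_le_Th h2
  rw [chkFH, force_eq, force_eq] at h
  obtain ⟨r, Xm, Cm, h3, h4⟩ := of_runG h hg (by
    rintro _ ⟨x, hx, rfl⟩; rw [← map_mul, h2 x hx, map_one]) fun e => h1 (by
      rw [← card_eq_one, ← card_cj g, e, card_bot])
  simp only [tstE, and'_eq_true, ble_iff] at h4
  rw [← card_cj g, h3.card]
  obtain ⟨⟨h5, h6⟩, -⟩ := h4
  replace h6 := of_fewF h6
  rw [h3.bs_cm, card_fx_cj] at h6
  interval_cases r <;> simp at h6 ⊢ <;> omega

theorem holt_of (h : D.chkFH = true) : D.HoltChk := by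
  intro Y h2 τ hτ h1 U u1 u2 u3 u4 u5 u6
  obtain ⟨g, hg⟩ := exists_cj_le_Th h2
  have h2' : ∀ x ∈ cj g Y, x * x = 1 := by
    rintro _ ⟨x, hx, rfl⟩; rw [← map_mul, h2 x hx, map_one]
  have hτ' : g * τ * g⁻¹ ∈ cj g Y := conj_mem_cj.2 hτ
  have h1' : g * τ * g⁻¹ ≠ 1 := by simpa using h1
  rw [chkFH, force_eq, force_eq] at h
  obtain ⟨r, Xm, Cm, h3, h4⟩ := of_runG h hg h2' fun e => h1' (by simpa [e] using hτ')
  simp only [tstE, and'_eq_true, or'_eq_true, ble_iff, force_eq, fs_eq] at h4
  have hN : ∀ d ∈ U, (Nat.land Cm (Nat.xor (onz 2048) (D.orb 7))).testBit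
      (D.act (cd g) d) = true := fun d hd => by
    have : ¬ (D.orb 7).testBit (D.act (cd g) d) = true := fun h => by
      obtain ⟨k, hk⟩ := D.of_orb h
      exact u5 d hd (g⁻¹ * k) (by rw [D.act_mul _ _ D.z0_lt, hk, D.act_inv_act g (u1 d hd)])
    simp only [Nat.land_eq, Nat.xor_eq, Nat.testBit_and, Nat.testBit_xor, testBit_onz,
      (h3.cm _).2 ((D.mem_fx_cj g Y (u1 d hd)).2 (D.mem_fx.2 ⟨u1 d hd, u3 d hd⟩))]
    simp [D.act_lt, this]
  rcases h4.2 with h5 | h5
  · have h6 := noSub_sound h5 (U := U.image (D.act (cd g))) (by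
      simp only [Finset.mem_image]; rintro _ ⟨a, -, rfl⟩; exact D.act_lt _ _) (by
      simp only [Finset.mem_image]
      rintro _ ⟨a, ha, rfl⟩ _ ⟨b, hb, rfl⟩
      exact ⟨_, u2 a ha b hb, D.act_xor g (u1 a ha) (u1 b hb)⟩) (by
      simp only [Finset.mem_image]
      rintro _ ⟨a, ha, rfl⟩ h0
      rw [Nat.xor_eq, Nat.testBit_xor, hN a ha, Bool.eq_false_iff.2 fun h =>
        h0 (Nat.testBit_one_eq_true_iff_self_eq_zero.1 h)]
      rfl)
    rw [Finset.card_image_of_injOn fun a ha b hb e => D.act_inj g (u1 a ha) (u1 b hb) e] at h6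
    rw [← card_cj g, h3.card]
    have h7 := h4.1.1
    replace h6 := h6.resolve_right (by omega)
    interval_cases r <;> simp at h6 ⊢ <;> omega
  · exfalso
    obtain ⟨i, hi, e⟩ := exists_iv (hg hτ') h1' (h2' _ hτ')
    obtain ⟨j, hj, h6⟩ := of_anyF (of_allF h5 ((h3.xm i).2 ⟨hi, e ▸ hτ'⟩))
    obtain ⟨v, hv, h7⟩ := of_anyF h6
    obtain ⟨hj1, x, hx, ex⟩ := (h3.xm j).1 hj
    obtain ⟨hv1, hv2⟩ := (D.testBit_fms hi v).1 hv
    rw [← cd_iv hi, e] at hv2
    have a1 := D.act_lt (cd g⁻¹) v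
    have h8 := hN _ (u4 _ a1 (by
      rw [← D.act_mul _ _ hv1, show τ * g⁻¹ = g⁻¹ * (g * τ * g⁻¹) by group, D.act_mul _ _ hv1,
        hv2]) x hx)
    rw [D.act_xor g (D.act_lt _ _) a1, D.act_act_inv g hv1, ← D.act_mul _ _ a1,
      ← D.act_mul _ _ hv1] at h8
    rw [not'_eq_true, or'_eq_true, tb_eq, (D.col_ccs hj1).app_eq hv1, ← ex] at h7
    exact h7 (.inr h8)

end Md

theorem chk_go : go.chkFH = true := by decide +kernel

theorem chk_co : co.chkFH = true := by decide +kernel

theorem ff_go : go.FF := Md.ff_of chk_go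

theorem ff_co : co.FF := Md.ff_of chk_co

theorem holt_go : go.HoltChk := Md.holt_of chk_go

theorem holt_co : co.HoltChk := Md.holt_of chk_co

theorem good_go : go.Good 1 := ⟨tab_go, ff_go, holt_go⟩

theorem good_co : co.Good (mc yC) := ⟨tab_co, ff_co, holt_co⟩

end Cfsg.Agent.R24
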