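import Cfsg.Agent.R24.Def

/-!
# S3318: transport of finite facts along `S0`, and a fast evaluation of the action
-/

set_option autoImplicit false

namespace Cfsg.Agent.R24

open Cfsg Cfsg.Agent.Comp Cfsg.Agent.Spor Cfsg.Agent.Spor.M24C Subgroup
open scoped Pointwise

/-- Packing of 11-bit numbers. -/
noncomputable def pk11 (f : ℕ → ℕ) (n : ℕ) : ℕ :=
  Nat.rec (motive := fun _ => ℕ) 0
    (fun i ih => force ih fun r => Nat.add r (Nat.shiftLeft (f i) (Nat.mul 11 i))) n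

theorem pk11_succ (f : ℕ → ℕ) (n : ℕ) : pk11 f (n + 1) = pk11 f n + f n * 2048 ^ n := by
  have : pk11 f (n + 1) = force (pk11 f n) fun r => r + f n <<< (11 * n) := rfl
  rw [this, force_eq, Nat.shiftLeft_eq, pow_mul]
  norm_num

theorem pk11_lt {f : ℕ → ℕ} (hf : ∀ i, f i < 2048) (n : ℕ) : pk11 f n < 2048 ^ n := by
  induction n with
  | zero => exact Nat.one_pos
  | succ n ih =>
    rw [pk11_succ, pow_succ]
    have := hf n
    nlinarith

theorem dig_pk11 {f : ℕ → ℕ} (hf : ∀ i, f i < 2048) {n i : ℕ} (hi : i < n) :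
    dig 11 2047 (pk11 f n) i = f i := by
  have e : ∀ c, dig 11 2047 c i = c / 2048 ^ i % 2048 := fun c => by
    have : dig 11 2047 c i = (c >>> (11 * i)) &&& (2 ^ 11 - 1) := rfl
    rw [this, Nat.and_two_pow_sub_one_eq_mod, Nat.shiftRight_eq_div_pow, pow_mul]
    norm_num
  rw [e]
  induction n with
  | zero => omega
  | succ n ih =>
    rw [pk11_succ]
    rcases Nat.lt_succ_iff_lt_or_eq.1 hi with h | rfl
    · obtain ⟨d, rfl⟩ := Nat.exists_eq_add_of_lt h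
      rw [show f (i + d + 1) * 2048 ^ (i + d + 1) = 2048 ^ i * (2048 * (f (i + d + 1) * 2048 ^ d)) by ring,
        Nat.add_mul_div_left _ _ (by positivity), Nat.add_mul_mod_self_left, ih h]
    · rw [Nat.add_mul_div_right _ _ (by positivity), Nat.div_eq_of_lt (pk11_lt hf i), zero_add,
        Nat.mod_eq_of_lt (hf i)]

/-- Evaluation of a table. -/
noncomputable def fa (T a : ℕ) : ℕ :=
  Nat.xor (dig 11 2047 T (Nat.land a 63)) (dig 11 2047 T (Nat.add 64 (Nat.shiftRight a 6)))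

theorem split_aux : allB 2048 (fun a => Nat.beq (Nat.xor (Nat.land a 63)
    (Nat.shiftLeft (Nat.shiftRight a 6) 6)) a) = true := by decide +kernel

namespace Md
variable (D : Md)

/-- The table of the action of `c`. -/
noncomputable def ft (c : ℕ) : ℕ :=
  pk11 (fun i => D.act c (ite' (Nat.blt i 64) i (Nat.shiftLeft (Nat.sub i 64) 6))) 96

theorem fa_ft (g : M24) {a : ℕ} (ha : a < 2048) : fa (D.ft (cd g)) a = D.act (cd g) a := by
  have h1 : Nat.land a 63 < 64 := lt_of_le_of_lt Nat.and_le_right (by norm_num)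
  have h2 : Nat.shiftRight a 6 < 32 := by
    change a >>> 6 < 32
    rw [Nat.shiftRight_eq_div_pow]; omega
  have h3 : Nat.shiftLeft (Nat.shiftRight a 6) 6 < 2048 := by
    change _ <<< 6 < 2048
    rw [Nat.shiftLeft_eq]; omega
  have h4 : Nat.add 64 (Nat.shiftRight a 6) < 96 := by change 64 + _ < 96; omega
  rw [fa, ft, dig_pk11 (fun _ => D.act_lt _ _) (by omega), dig_pk11 (fun _ => D.act_lt _ _) h4,
    (blt_iff _ _).2 h1, show Nat.blt (Nat.add 64 (Nat.shiftRight a 6)) 64 = false from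
      Bool.eq_false_iff.2 fun h => by have := (blt_iff _ _).1 h; change 64 + _ < 64 at this; omega,
    ite'_true, ite'_false, show Nat.sub (Nat.add 64 (Nat.shiftRight a 6)) 64 = Nat.shiftRight a 6 from
      Nat.add_sub_cancel_left _ _]
  conv_rhs => rw [← (beq_iff _ _).1 ((allB_iff _ _).1 split_aux a ha)]
  exact (D.act_xor g (by omega) h3).symm

/-- `fa T a ^^^ a ∈ {0, z0}` -/
noncomputable def fz (T a : ℕ) : Bool :=
  force (Nat.xor (fa T a) a) fun x => or' (Nat.beq x 0) (Nat.beq x D.z0)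

theorem fz_ft (g : M24) {a : ℕ} (ha : a < 2048) : D.fz (D.ft (cd g)) a = D.cz (cd g) a := by
  rw [fz, fa_ft _ _ ha, cz]

/-- `c` is the code of an element of `S0`. -/
noncomputable def okS (c : ℕ) : Bool := and' (okM c) (Nat.beq (D.act c D.z0) D.z0)

theorem tr_forall (g : M24) {P : ℕ → Prop} (h : ∀ a < 2048, P (D.act (cd g) a)) : ∀ a < 2048, P a :=
  fun _ ha => D.act_act_inv g ha ▸ h _ (D.act_lt _ _)

theorem tr_ex (g : M24) {a : ℕ} (ha : a < 2048) : ∃ b, D.act (cd g) b = a ∧ b < 2048 :=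
  ⟨_, D.act_act_inv g ha, D.act_lt _ _⟩

variable {D}

theorem cd_okS {c : ℕ} (h : D.okS c = true) : cd (mc c) = c := cd_mc ((and'_eq_true _ _).1 h).1

theorem mem_okS {c : ℕ} (h : D.okS c = true) : mc c ∈ D.S0 := by
  rw [D.mem_S0', cd_okS h]; exact (beq_iff _ _).1 ((and'_eq_true _ _).1 h).2

theorem tr_act (g x : M24) {a : ℕ} (ha : a < 2048) :
    D.act (cd (g * x * g⁻¹)) (D.act (cd g) a) = D.act (cd g) (D.act (cd x) a) := by
  rw [← D.act_mul _ _ ha, inv_mul_cancel_right, D.act_mul _ _ ha]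

theorem tr_xor (g x : M24) {a b : ℕ} (ha : a < 2048) (hb : b < 2048) :
    D.act (cd (g * x * g⁻¹)) (D.act (cd g) a) ^^^ D.act (cd g) b =
      D.act (cd g) (D.act (cd x) a ^^^ b) := by
  rw [tr_act g x ha, D.act_xor g (D.act_lt _ _) hb]

theorem tr_eq (g : M24) {a b : ℕ} (ha : a < 2048) (hb : b < 2048) :
    D.act (cd g) a = D.act (cd g) b ↔ a = b := ⟨D.act_inj g ha hb, fun h => h ▸ rfl⟩

theorem tr_fix (g x : M24) {a : ℕ} (ha : a < 2048) :
    D.act (cd (g * x * g⁻¹)) (D.act (cd g) a) = D.act (cd g) a ↔ D.act (cd x) a = a := by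
  rw [tr_act g x ha, tr_eq g (D.act_lt _ _) ha]

theorem tr_z {g : M24} (hg : g ∈ D.S0) {a : ℕ} (ha : a < 2048) :
    (D.act (cd g) a = 0 ∨ D.act (cd g) a = D.z0) ↔ a = 0 ∨ a = D.z0 := by
  conv_lhs => rw [← D.act_zero g, ← (D.mem_S0' g).1 hg]
  rw [tr_eq g ha (by norm_num), tr_eq g ha D.z0_lt]

theorem tr_cz {g : M24} (hg : g ∈ D.S0) (x : M24) {a : ℕ} (ha : a < 2048) :
    D.cz (cd (g * x * g⁻¹)) (D.act (cd g) a) = true ↔ D.cz (cd x) a = true := by
  rw [cz_iff, cz_iff, tr_xor g x ha ha, tr_z hg (xor_lt (D.act_lt _ _) ha)]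

theorem tr_inW (hE : ∀ g ∈ D.S0, ∀ x ∈ D.E, g * x * g⁻¹ ∈ D.E) {g : M24} (hg : g ∈ D.S0) {a : ℕ}
    (ha : a < 2048) : D.inW (D.act (cd g) a) ↔ D.inW a :=
  ⟨fun h x hx => (D.cz_iff _ _).1 ((tr_cz hg x ha).1 ((D.cz_iff _ _).2 (h _ (hE g hg x hx)))),
    fun h x hx => by
      have := (tr_cz hg _ ha).2 ((D.cz_iff _ _).2 (h _ (hE _ (inv_mem hg) x hx)))
      rwa [show g * (g⁻¹ * x * g⁻¹⁻¹) * g⁻¹ = x by group, cz_iff] at this⟩

theorem tr_inW_xor {a b : ℕ} (ha : a < 2048) (hb : b < 2048) (h1 : D.inW a) (h2 : D.inW b) :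
    D.inW (a ^^^ b) := fun g hg => by
  have : D.act (cd g) (a ^^^ b) ^^^ (a ^^^ b) = (D.act (cd g) a ^^^ a) ^^^ (D.act (cd g) b ^^^ b) := by
    rw [D.act_xor g ha hb]; ac_rfl
  rw [this]
  rcases h1 g hg with e | e <;> rcases h2 g hg with e' | e' <;> simp [e, e']

theorem tr_inW_zero : D.inW 0 := fun g _ => Or.inl (by rw [D.act_zero, Nat.xor_self])

/-- The stabiliser of the class of `a` modulo `W` is closed under products. -/
theorem tr_mul (hE : ∀ g ∈ D.S0, ∀ x ∈ D.E, g * x * g⁻¹ ∈ D.E) {g h : M24} (hg : g ∈ D.S0) {a : ℕ}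
    (ha : a < 2048) (h1 : D.inW (D.act (cd g) a ^^^ a)) (h2 : D.inW (D.act (cd h) a ^^^ a)) :
    D.inW (D.act (cd (g * h)) a ^^^ a) := by
  have := tr_inW_xor (D.act_lt _ _) (xor_lt (D.act_lt _ _) ha)
    ((tr_inW hE hg (xor_lt (D.act_lt _ _) ha)).2 h2) h1
  rwa [D.act_xor g (D.act_lt _ _) ha, ← D.act_mul g h ha, Nat.xor_assoc,
    ← Nat.xor_assoc (D.act (cd g) a), Nat.xor_self, Nat.zero_xor] at this

theorem tr_pow (hE : ∀ g ∈ D.S0, ∀ x ∈ D.E, g * x * g⁻¹ ∈ D.E) {g : M24} (hg : g ∈ D.S0) {a : ℕ}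
    (ha : a < 2048) (h : D.inW (D.act (cd g) a ^^^ a)) (n : ℕ) : D.inW (D.act (cd (g ^ n)) a ^^^ a) := by
  induction n with
  | zero => rw [pow_zero, D.act_one ha, Nat.xor_self]; exact tr_inW_zero
  | succ n ih => rw [pow_succ']; exact tr_mul hE hg ha h ih

end Md

theorem cd_eT {b : ℕ} (hb : b < 1024) : cd (mc (eT b)) = eT b := okM_of_inH (inH_eT hb)

theorem cd_pow (g : M24) (n : ℕ) : cd (g ^ n) = powC (cd g) n := code_pow' g n

theorem goE_conj : ∀ g ∈ go.S0, ∀ x ∈ go.E, g * x * g⁻¹ ∈ go.E := fun g hg x hx => by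
  have : g * x * g⁻¹ ∈ fixS (g • setOf' 5279) := (mem_fixS_smul g _ _).2 (by
    rw [show g⁻¹ * (g * x * g⁻¹) * g = x by group]; exact hx)
  rwa [show g • setOf' 5279 = setOf' 5279 from hg] at this

end Cfsg.Agent.R24
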